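import Cfsg.Agent.Lib.BN.Reduced
import Mathlib.LinearAlgebra.Matrix.NonsingularInverse
import Mathlib.LinearAlgebra.Matrix.ToLin
import Mathlib.LinearAlgebra.Trace
import Mathlib.Topology.Instances.Matrix
import Mathlib.Analysis.Complex.Basic
import Mathlib.GroupTheory.GroupAction.ConjAct
import Mathlib.Algebra.Group.ConjFinite

/-!
The generic Hecke algebra of the Weyl group of a (B, N)-pair at a complex parameter, and the
constancy of the dimension of its center for positive parameters.
-/

set_option autoImplicit false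
set_option linter.unusedSectionVars false

namespace Cfsg.Agent.Lib.BN.Deform

open Matrix
open scoped Classical ComplexConjugate

variable {G : Type*} [Group G] (P : Cfsg.BNPair G) [Fintype (Weyl P)]

abbrev Mat := Matrix (Weyl P) (Weyl P) ℂ

/-- A basis vector. -/
noncomputable def dlt (w : Weyl P) : Weyl P → ℂ := Pi.single w 1

/-- Left multiplication by a generator. -/
noncomputable def lam (t : ℂ) (s : P.S) : Mat P := Matrix.of fun v w =>
  if len P w < len P (si P s * w) then (if v = si P s * w then 1 else 0)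
  else (if v = si P s * w then t else 0) + (if v = w then t - 1 else 0)

/-- Right multiplication by a generator. -/
noncomputable def rho (t : ℂ) (r : P.S) : Mat P := Matrix.of fun v w =>
  if len P w < len P (w * si P r) then (if v = w * si P r then 1 else 0)
  else (if v = w * si P r then t else 0) + (if v = w then t - 1 else 0)

variable {P}

theorem lam_dlt (t : ℂ) (s : P.S) (w : Weyl P) :
    lam P t s *ᵥ dlt P w = if len P w < len P (si P s * w) then dlt P (si P s * w)
      else t • dlt P (si P s * w) + (t - 1) • dlt P w := by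
  funext v
  rw [dlt, Matrix.mulVec_single_one]
  show lam P t s v w = _
  split_ifs with h <;> simp [lam, h, dlt, Pi.single_apply]

theorem rho_dlt (t : ℂ) (r : P.S) (w : Weyl P) :
    rho P t r *ᵥ dlt P w = if len P w < len P (w * si P r) then dlt P (w * si P r)
      else t • dlt P (w * si P r) + (t - 1) • dlt P w := by
  funext v
  rw [dlt, Matrix.mulVec_single_one]
  show rho P t r v w = _
  split_ifs with h <;> simp [rho, h, dlt, Pi.single_apply]

theorem mat_ext {A B : Mat P} (h : ∀ w, A *ᵥ dlt P w = B *ᵥ dlt P w) : A = B :=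
  Matrix.ext fun v w => by
    have := congrFun (h w) v
    simpa [dlt, Matrix.mulVec_single_one] using this

theorem eq_sum_dlt (x : Weyl P → ℂ) : x = ∑ u, x u • dlt P u := by
  funext v
  simp [dlt, Pi.single_apply]

theorem len_mul_si_ne (w : Weyl P) (r : P.S) : len P (w * si P r) ≠ len P w := by
  rw [← len_inverse P (w * si P r), ← len_inverse P w, _root_.mul_inv_rev, si_inv]
  exact len_si_mul_ne P r w⁻¹

theorem key_eq {s r : P.S} {w : Weyl P} (h1 : len P (si P s * w * si P r) = len P w)
    (h2 : len P (si P s * w) = len P (w * si P r)) : si P s * w = w * si P r := by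
  suffices key : ∀ w : Weyl P, len P (si P s * w * si P r) = len P w →
      len P (si P s * w) = len P (w * si P r) → len P w < len P (si P s * w) →
      si P s * w = w * si P r by
    rcases lt_or_gt_of_ne (len_si_mul_ne P s w) with h | h
    · have := key (si P s * w) ?_ ?_ (by rw [si_mul_cancel]; exact h)
      · rw [si_mul_cancel] at this
        calc si P s * w = si P s * w * si P r * si P r := by rw [mul_assoc, si_mul_self, mul_one]
          _ = w * si P r := by rw [← this]
      · rw [si_mul_cancel]; exact h2.symm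
      · rw [si_mul_cancel]; exact h1.symm
    · exact key w h1 h2 h
  clear h1 h2 w
  intro w h1 h2 h3
  obtain ⟨L, hl, rfl⟩ := exists_reduced P w
  have hw : word P (L ++ [r]) = word P L * si P r := by simp
  obtain ⟨i, hi, he⟩ := exchange P s (L ++ [r])
    (by rw [hw, ← mul_assoc, h1, ← h2]; exact h3)
  rw [hw, ← mul_assoc] at he
  simp only [List.length_append, List.length_cons, List.length_nil] at hi
  by_cases hiL : i < L.length
  · exfalso
    rw [List.eraseIdx_append_of_lt_length hiL, word_append, word_cons, word_nil, mul_one] at he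
    have h4 := len_word_le P (L.eraseIdx i)
    rw [List.length_eraseIdx_of_lt hiL, ← mul_right_cancel he] at h4
    omega
  · obtain rfl : i = L.length := by omega
    rw [List.eraseIdx_append_of_length_le le_rfl] at he
    simp only [Nat.sub_self, List.eraseIdx_cons_zero, List.append_nil] at he
    calc si P s * word P L = si P s * word P L * si P r * si P r := by
          rw [mul_assoc (si P s * word P L), si_mul_self, mul_one]
      _ = word P L * si P r := by rw [he]

theorem lam_rho (t : ℂ) (s r : P.S) : lam P t s * rho P t r = rho P t r * lam P t s := by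
  refine mat_ext fun w => ?_
  rw [← Matrix.mulVec_mulVec, ← Matrix.mulVec_mulVec, rho_dlt, lam_dlt]
  have ha := len_si_mul_ne P s w
  have hb := len_mul_si_ne w r
  have ha1 := len_si_mul_le P s w
  have ha2 := le_len_si_mul P s w
  have hb1 := len_mul_si_le P r w
  have hb2 : len P w ≤ len P (w * si P r) + 1 := by
    have := len_mul_si_le P r (w * si P r)
    rwa [mul_assoc, si_mul_self, mul_one] at this
  have hc := len_si_mul_ne P s (w * si P r)
  have hc1 := len_si_mul_le P s (w * si P r)
  have hc2 := le_len_si_mul P s (w * si P r)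
  have hd := len_mul_si_ne (si P s * w) r
  have hd1 := len_mul_si_le P r (si P s * w)
  have hd2 : len P (si P s * w) ≤ len P (si P s * w * si P r) + 1 := by
    have := len_mul_si_le P r (si P s * w * si P r)
    rwa [mul_assoc _ (si P r), si_mul_self, mul_one] at this
  have hk := fun a b => key_eq (P := P) (s := s) (r := r) (w := w) a b
  have hassoc : si P s * (w * si P r) = si P s * w * si P r := (mul_assoc _ _ _).symm
  rw [hassoc] at hc hc1 hc2
  have hcancel : si P s * w = w * si P r → si P s * w * si P r = w := fun e => by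
    rw [e, mul_assoc, si_mul_self, mul_one]
  by_cases h1 : len P w < len P (si P s * w) <;> by_cases h2 : len P w < len P (w * si P r)
  all_goals simp only [h1, h2, if_true, if_false, Matrix.mulVec_add, Matrix.mulVec_smul, lam_dlt,
    rho_dlt, hassoc]
  · by_cases hcw : len P (si P s * w * si P r) = len P w
    · have e := hk hcw (by omega)
      rw [← e] at *
    · simp only [show len P (w * si P r) < len P (si P s * w * si P r) by omega,
        show len P (si P s * w) < len P (si P s * w * si P r) by omega, if_true]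
  · simp only [show len P (w * si P r) < len P (si P s * w * si P r) by omega,
      show ¬ len P (si P s * w) < len P (si P s * w * si P r) by omega, if_true, if_false]
  · simp only [show ¬ len P (w * si P r) < len P (si P s * w * si P r) by omega,
      show len P (si P s * w) < len P (si P s * w * si P r) by omega, if_true, if_false]
  · by_cases hcw : len P (si P s * w * si P r) = len P w
    · have e := hk hcw (by omega)
      rw [← e] at *
    · simp only [show ¬ len P (w * si P r) < len P (si P s * w * si P r) by omega,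
        show ¬ len P (si P s * w) < len P (si P s * w * si P r) by omega, if_false,
        smul_add, smul_smul]
      rw [mul_comm (t - 1) t]
      abel

/-! ### the commutant -/

/-- Commutes with all right multiplications. -/
def Com (t : ℂ) (X : Mat P) : Prop := ∀ r, X * rho P t r = rho P t r * X

theorem com_mul {t : ℂ} {X Y : Mat P} (hX : Com t X) (hY : Com t Y) : Com t (X * Y) := fun r => by
  rw [mul_assoc, hY r, ← mul_assoc, hX r, mul_assoc]

theorem com_sum {t : ℂ} {ι : Type*} (s : Finset ι) {f : ι → Mat P} (h : ∀ i ∈ s, Com t (f i)) :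
    Com t (∑ i ∈ s, f i) := fun r => by
  rw [Finset.sum_mul, Finset.mul_sum]
  exact Finset.sum_congr rfl fun i hi => h i hi r

theorem com_smul {t : ℂ} {X : Mat P} (c : ℂ) (h : Com t X) : Com t (c • X) := fun r => by
  rw [Matrix.smul_mul, Matrix.mul_smul, h r]

theorem com_one (t : ℂ) : Com t (1 : Mat P) := fun r => by rw [one_mul, mul_one]

theorem com_ext {t : ℂ} {X Y : Mat P} (hX : Com t X) (hY : Com t Y)
    (h : X *ᵥ dlt P 1 = Y *ᵥ dlt P 1) : X = Y := by
  refine mat_ext fun w => ?_
  suffices key : ∀ (k : ℕ) (w : Weyl P), len P w = k → X *ᵥ dlt P w = Y *ᵥ dlt P w from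
    key _ w rfl
  intro k
  induction k with
  | zero => intro w hw; rw [eq_one_of_len_eq_zero P hw]; exact h
  | succ k ih =>
    intro w hw
    obtain ⟨u, r, rfl, hu⟩ := exists_right_factor P (w := w) (by omega)
    have e : dlt P (u * si P r) = rho P t r *ᵥ dlt P u := by
      rw [rho_dlt, if_pos (by omega)]
    rw [e, Matrix.mulVec_mulVec, Matrix.mulVec_mulVec, hX r, hY r, ← Matrix.mulVec_mulVec,
      ← Matrix.mulVec_mulVec, ih u (by omega)]

variable (P)

/-- The product of left multiplications along a word. -/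
noncomputable def lamWord (t : ℂ) (L : List P.S) : Mat P := (L.map (lam P t)).prod

/-- The reduced word used. -/
noncomputable def rword (w : Weyl P) : List P.S := (exists_reduced P w).choose

/-- A basis element of the algebra. -/
noncomputable def bas (t : ℂ) (w : Weyl P) : Mat P := lamWord P t (rword P w)

variable {P}

theorem rword_spec (w : Weyl P) :
    (rword P w).length = len P w ∧ word P (rword P w) = w :=
  (exists_reduced P w).choose_spec

theorem com_lamWord (t : ℂ) (L : List P.S) : Com t (lamWord P t L) := by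
  induction L with
  | nil => exact com_one t
  | cons s L ih => exact com_mul (fun r => lam_rho t s r) ih

theorem com_bas (t : ℂ) (w : Weyl P) : Com t (bas P t w) := com_lamWord t _

theorem lamWord_col (t : ℂ) : ∀ L : List P.S, L.length = len P (word P L) →
    lamWord P t L *ᵥ dlt P 1 = dlt P (word P L)
  | [], _ => by simp [lamWord]
  | s :: L, h => by
    have h0 := len_word_le P L
    have h1 := len_si_mul_le P s (word P L)
    simp only [List.length_cons, word_cons] at h
    rw [show lamWord P t (s :: L) = lam P t s * lamWord P t L from rfl, ← Matrix.mulVec_mulVec,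
      lamWord_col t L (by omega), lam_dlt, if_pos (by omega), word_cons]

theorem bas_col (t : ℂ) (w : Weyl P) : bas P t w *ᵥ dlt P 1 = dlt P w := by
  obtain ⟨h1, h2⟩ := rword_spec w
  rw [bas, lamWord_col t _ (by rw [h2]; exact h1), h2]

theorem lamWord_eq_bas (t : ℂ) (L : List P.S) (h : L.length = len P (word P L)) :
    lamWord P t L = bas P t (word P L) :=
  com_ext (com_lamWord t L) (com_bas t _) (by rw [lamWord_col t L h, bas_col])

theorem bas_one (t : ℂ) : bas P t (1 : Weyl P) = 1 :=
  com_ext (com_bas t 1) (com_one t) (by rw [bas_col, Matrix.one_mulVec])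

variable (P)

/-- The operator of a vector. -/
noncomputable def opr (t : ℂ) (x : Weyl P → ℂ) : Mat P := ∑ u, x u • bas P t u

variable {P}

theorem com_opr (t : ℂ) (x : Weyl P → ℂ) : Com t (opr P t x) :=
  com_sum _ fun u _ => com_smul _ (com_bas t u)

theorem opr_col (t : ℂ) (x : Weyl P → ℂ) : opr P t x *ᵥ dlt P 1 = x := by
  simp only [opr, Matrix.sum_mulVec, Matrix.smul_mulVec, bas_col]
  exact (eq_sum_dlt x).symm

theorem lam_mul_bas (t : ℂ) (s : P.S) (w : Weyl P) :
    lam P t s * bas P t w = ∑ v, lam P t s v w • bas P t v := by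
  refine com_ext (com_mul (fun r => lam_rho t s r) (com_bas t w))
    (com_sum _ fun v _ => com_smul _ (com_bas t v)) ?_
  rw [← Matrix.mulVec_mulVec, bas_col, Matrix.sum_mulVec]
  simp only [Matrix.smul_mulVec, bas_col]
  rw [← eq_sum_dlt fun v => lam P t s v w, dlt, Matrix.mulVec_single_one]
  rfl

variable (P)

/-- The weights. -/
noncomputable def wt (t : ℂ) : Mat P := Matrix.diagonal fun w => t ^ len P w

variable {P}

theorem lam_symm (t : ℂ) (s : P.S) (v w : Weyl P) :
    t ^ len P w * lam P t s w v = t ^ len P v * lam P t s v w := by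
  by_cases hvw : v = w
  · rw [hvw]
  by_cases h : v = si P s * w
  · have hwv : w = si P s * v := by rw [h, si_mul_cancel]
    have ha := len_si_mul_ne P s w
    have ha1 := len_si_mul_le P s w
    have ha2 := le_len_si_mul P s w
    simp only [lam, Matrix.of_apply, ← hwv, ← h, if_neg hvw, if_neg (Ne.symm hvw), if_true, add_zero]
    rw [← h] at ha ha1 ha2
    by_cases h1 : len P w < len P v
    · rw [if_neg (show ¬ len P v < len P w by omega), if_pos h1,
        show len P v = len P w + 1 by omega, pow_succ, mul_one]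
    · rw [if_pos (show len P v < len P w by omega), if_neg h1,
        show len P w = len P v + 1 by omega, pow_succ, mul_one]
  · have hwv : w ≠ si P s * v := fun e => h (by rw [e, si_mul_cancel])
    simp [lam, hvw, Ne.symm hvw, h, hwv]

theorem lam_adj (t : ℂ) (s : P.S) : (lam P t s)ᵀ * wt P t = wt P t * lam P t s := by
  ext v w
  rw [wt, Matrix.mul_diagonal, Matrix.diagonal_mul, Matrix.transpose_apply, mul_comm, lam_symm]

theorem lamWord_adj (t : ℂ) : ∀ L : List P.S,
    (lamWord P t L)ᵀ * wt P t = wt P t * lamWord P t L.reverse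
  | [] => by simp [lamWord]
  | s :: L => by
    rw [show lamWord P t (s :: L) = lam P t s * lamWord P t L from rfl, Matrix.transpose_mul,
      mul_assoc, lam_adj, ← mul_assoc, lamWord_adj t L, mul_assoc]
    congr 1
    simp [lamWord]

theorem bas_adj (t : ℂ) (w : Weyl P) :
    (bas P t w)ᵀ * wt P t = wt P t * bas P t w⁻¹ := by
  obtain ⟨h1, h2⟩ := rword_spec w
  rw [bas, lamWord_adj, lamWord_eq_bas t _ (by
    rw [List.length_reverse, word_reverse, h2, len_inverse]; exact h1), word_reverse, h2]

theorem wt_cancel {t : ℂ} (ht : t ≠ 0) {A B : Mat P} (h : wt P t * A = wt P t * B) : A = B := by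
  ext v w
  have := congrFun (congrFun h v) w
  rw [wt, Matrix.diagonal_mul, Matrix.diagonal_mul] at this
  exact mul_left_cancel₀ (pow_ne_zero _ ht) this

theorem bas_mul_lam {t : ℂ} (ht : t ≠ 0) (s : P.S) (w : Weyl P) :
    bas P t w⁻¹ * lam P t s = ∑ v, lam P t s v w • bas P t v⁻¹ := by
  refine wt_cancel ht ?_
  rw [← mul_assoc, ← bas_adj, mul_assoc, ← lam_adj, ← mul_assoc, ← Matrix.transpose_mul,
    lam_mul_bas, Matrix.transpose_sum, Finset.sum_mul, Finset.mul_sum]
  exact Finset.sum_congr rfl fun v _ => by
    rw [Matrix.transpose_smul, Matrix.smul_mul, Matrix.mul_smul, bas_adj]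

variable (P)

/-- The Casimir operator of the algebra. -/
noncomputable def cas (t : ℂ) : Mat P := Matrix.of fun v u =>
  ∑ w, (t ^ len P w)⁻¹ * ((bas P t w * bas P t u * bas P t w⁻¹) *ᵥ dlt P 1) v

/-- The Casimir element. -/
noncomputable def gam (t : ℂ) : Mat P := ∑ w, (t ^ len P w)⁻¹ • (bas P t w * bas P t w⁻¹)

variable {P}

theorem opr_cas (t : ℂ) (x : Weyl P → ℂ) :
    opr P t (cas P t *ᵥ x) =
      ∑ w, (t ^ len P w)⁻¹ • (bas P t w * opr P t x * bas P t w⁻¹) := by
  refine com_ext (com_opr t _) (com_sum _ fun w _ =>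
    com_smul _ (com_mul (com_mul (com_bas t w) (com_opr t x)) (com_bas t _))) ?_
  rw [opr_col]
  funext v
  simp only [Matrix.mulVec, dotProduct, cas, Matrix.of_apply, Finset.sum_mul, opr, Finset.mul_sum,
    Matrix.mul_smul, Matrix.smul_mul, Finset.smul_sum, Matrix.sum_apply, Matrix.smul_apply,
    smul_eq_mul]
  rw [Finset.sum_comm]
  conv_rhs => rw [Finset.sum_comm]
  refine Finset.sum_congr rfl fun w _ => ?_
  rw [Finset.sum_comm]
  exact Finset.sum_congr rfl fun u _ => Finset.sum_congr rfl fun i _ => by ring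

theorem cas_central {t : ℂ} (ht : t ≠ 0) (s : P.S) (x : Weyl P → ℂ) :
    lam P t s * opr P t (cas P t *ᵥ x) = opr P t (cas P t *ᵥ x) * lam P t s := by
  rw [opr_cas, Finset.mul_sum, Finset.sum_mul]
  simp only [Matrix.mul_smul, Matrix.smul_mul]
  have h1 : ∀ w, lam P t s * (bas P t w * opr P t x * bas P t w⁻¹) =
      ∑ v, lam P t s v w • (bas P t v * opr P t x * bas P t w⁻¹) := fun w => by
    rw [← mul_assoc, ← mul_assoc, lam_mul_bas, Finset.sum_mul, Finset.sum_mul]
    simp only [Matrix.smul_mul]
  have h2 : ∀ w, bas P t w * opr P t x * bas P t w⁻¹ * lam P t s =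
      ∑ v, lam P t s v w • (bas P t w * opr P t x * bas P t v⁻¹) := fun w => by
    rw [mul_assoc, bas_mul_lam ht, Finset.mul_sum]
    simp only [Matrix.mul_smul]
  simp only [h1, h2, Finset.smul_sum, smul_smul]
  rw [Finset.sum_comm]
  refine Finset.sum_congr rfl fun v _ => Finset.sum_congr rfl fun w _ => ?_
  congr 1
  have h := lam_symm t s v w
  field_simp
  linear_combination -h

theorem opr_cas_one (t : ℂ) : opr P t (cas P t *ᵥ dlt P 1) = gam P t := by
  have h : opr P t (dlt P 1) = 1 := com_ext (com_opr t _) (com_one t)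
    (by rw [opr_col, Matrix.one_mulVec])
  rw [opr_cas, h]
  simp [gam]

theorem com_gam (t : ℂ) : Com t (gam P t) :=
  com_sum _ fun w _ => com_smul _ (com_mul (com_bas t w) (com_bas t _))

theorem gam_lam {t : ℂ} (ht : t ≠ 0) (s : P.S) : lam P t s * gam P t = gam P t * lam P t s := by
  rw [← opr_cas_one, cas_central ht]

theorem commute_bas {t : ℂ} {X : Mat P} (h : ∀ s, lam P t s * X = X * lam P t s) (w : Weyl P) :
    bas P t w * X = X * bas P t w := by
  unfold bas
  induction rword P w with
  | nil => simp [lamWord]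
  | cons s L ih =>
    rw [show lamWord P t (s :: L) = lam P t s * lamWord P t L from rfl, mul_assoc, ih, ← mul_assoc,
      h s, mul_assoc]

/-- Vectors with central operator. -/
def IsCentral (t : ℂ) (x : Weyl P → ℂ) : Prop :=
  ∀ s, lam P t s * opr P t x = opr P t x * lam P t s

theorem cas_of_central {t : ℂ} {x : Weyl P → ℂ} (hx : IsCentral t x) :
    cas P t *ᵥ x = gam P t *ᵥ x := by
  have h : opr P t (cas P t *ᵥ x) = gam P t * opr P t x := by
    rw [opr_cas, gam, Finset.sum_mul]
    refine Finset.sum_congr rfl fun w _ => ?_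
    rw [Matrix.smul_mul, mul_assoc, ← commute_bas hx w⁻¹, ← mul_assoc]
  have := congrArg (fun X : Mat P => X *ᵥ dlt P 1) h
  simpa only [opr_col, ← Matrix.mulVec_mulVec] using this

variable (P)

/-- The idempotent onto the center. -/
noncomputable def proj (t : ℂ) : Mat P := (gam P t)⁻¹ * cas P t

/-- The dimension of the center. -/
noncomputable def cdim (t : ℂ) : ℕ :=
  Module.finrank ℂ (LinearMap.range (Matrix.toLin' (cas P t)))

variable {P}

theorem proj_idem {t : ℂ} (ht : t ≠ 0) (hu : IsUnit (gam P t).det) :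
    proj P t * proj P t = proj P t := by
  refine mat_ext fun w => ?_
  set z := proj P t *ᵥ dlt P w with hz
  have hg : gam P t *ᵥ z = cas P t *ᵥ dlt P w := by
    rw [hz, proj, Matrix.mulVec_mulVec, ← mul_assoc, Matrix.mul_nonsing_inv _ hu, one_mul]
  have hop : opr P t (gam P t *ᵥ z) = gam P t * opr P t z :=
    com_ext (com_opr t _) (com_mul (com_gam t) (com_opr t z))
      (by rw [opr_col, ← Matrix.mulVec_mulVec, opr_col])
  have hzc : IsCentral t z := fun s => by
    have h1 := cas_central ht s (dlt P w)
    rw [← hg, hop, ← mul_assoc, gam_lam ht, mul_assoc, mul_assoc] at h1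
    have := congrArg ((gam P t)⁻¹ * ·) h1
    simpa only [← mul_assoc, Matrix.nonsing_inv_mul _ hu, one_mul] using this
  rw [← Matrix.mulVec_mulVec, ← hz, proj, ← Matrix.mulVec_mulVec, cas_of_central hzc,
    Matrix.mulVec_mulVec, Matrix.nonsing_inv_mul _ hu, Matrix.one_mulVec]

theorem trace_proj {t : ℂ} (ht : t ≠ 0) (hu : IsUnit (gam P t).det) :
    (proj P t).trace = (cdim P t : ℂ) := by
  have hp : LinearMap.IsProj (LinearMap.range (Matrix.toLin' (proj P t)))
      (Matrix.toLin' (proj P t)) := by
    refine ⟨fun x => LinearMap.mem_range_self _ x, ?_⟩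
    rintro _ ⟨y, rfl⟩
    rw [Matrix.toLin'_apply, Matrix.toLin'_apply, Matrix.mulVec_mulVec, proj_idem ht hu]
  have h := hp.trace
  rw [Matrix.trace_toLin'_eq] at h
  rw [h, cdim]
  congr 1
  have hinj : Function.Injective (Matrix.toLin' (gam P t)) := by
    intro a b hab
    simp only [Matrix.toLin'_apply] at hab
    have := congrArg ((gam P t)⁻¹ *ᵥ ·) hab
    simpa [Matrix.mulVec_mulVec, Matrix.nonsing_inv_mul _ hu] using this
  rw [LinearEquiv.finrank_eq (Submodule.equivMapOfInjective _ hinj _), ← LinearMap.range_comp,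
    ← Matrix.toLin'_mul, proj, ← mul_assoc, Matrix.mul_nonsing_inv _ hu, one_mul]

/-! ### positive parameters -/

theorem lam_map_conj (t : ℝ) (s : P.S) :
    (lam P (t : ℂ) s).map (starRingEnd ℂ) = lam P (t : ℂ) s := by
  ext v w
  simp only [Matrix.map_apply, lam, Matrix.of_apply]
  split_ifs <;> simp

theorem bas_conjTranspose (t : ℝ) (w : Weyl P) :
    (bas P (t : ℂ) w)ᴴ = (bas P (t : ℂ) w)ᵀ := by
  have h : ∀ L : List P.S, (lamWord P (t : ℂ) L).map (starRingEnd ℂ) = lamWord P (t : ℂ) L := by
    intro L
    induction L with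
    | nil => simp [lamWord]
    | cons s L ih =>
      rw [show lamWord P (t : ℂ) (s :: L) = lam P t s * lamWord P t L from rfl, Matrix.map_mul, ih,
        lam_map_conj]
  ext i j
  have := congrFun (congrFun (h (rword P w)) j) i
  simpa [bas] using this

theorem gam_isUnit {t : ℝ} (ht : 0 < t) : IsUnit (gam P (t : ℂ)).det := by
  rw [← Matrix.isUnit_iff_isUnit_det, ← Matrix.mulVec_injective_iff_isUnit]
  intro a b hab
  rw [← sub_eq_zero]
  replace hab : gam P (t : ℂ) *ᵥ (a - b) = 0 := by rw [Matrix.mulVec_sub, sub_eq_zero]; exact hab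
  set y := a - b
  let q : (Weyl P → ℂ) → ℝ := fun z => ∑ v, t ^ len P v * Complex.normSq (z v)
  have hterm : ∀ w : Weyl P, star y ⬝ᵥ (wt P (t : ℂ) *ᵥ ((bas P t w * bas P t w⁻¹) *ᵥ y)) =
      (q (bas P t w⁻¹ *ᵥ y) : ℂ) := by
    intro w
    have e : wt P (t : ℂ) * bas P t w = (bas P t w⁻¹)ᴴ * wt P t := by
      rw [bas_conjTranspose, bas_adj, inv_inv]
    rw [Matrix.mulVec_mulVec, ← mul_assoc, e, mul_assoc, ← Matrix.mulVec_mulVec,
      Matrix.dotProduct_mulVec, ← Matrix.star_mulVec, ← Matrix.mulVec_mulVec]
    simp only [q, dotProduct, wt, Matrix.mulVec_diagonal, Pi.star_apply, Complex.ofReal_sum,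
      Complex.ofReal_mul, Complex.ofReal_pow, Complex.normSq_eq_conj_mul_self]
    exact Finset.sum_congr rfl fun v _ => by
      rw [← Complex.star_def]; ring
  have h0 : ((∑ w : Weyl P, (t ^ len P w)⁻¹ * q (bas P t w⁻¹ *ᵥ y) : ℝ) : ℂ) = 0 := by
    rw [Complex.ofReal_sum]
    simp only [Complex.ofReal_mul, ← hterm, Complex.ofReal_inv, Complex.ofReal_pow]
    have := congrArg (fun z => star y ⬝ᵥ (wt P (t : ℂ) *ᵥ z)) hab
    simp only [gam, Matrix.sum_mulVec, Matrix.smul_mulVec, Matrix.mulVec_sum, Matrix.mulVec_smul,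
      dotProduct_sum, dotProduct_smul, Matrix.mulVec_zero, dotProduct_zero, smul_eq_mul] at this
    exact this
  rw [Complex.ofReal_eq_zero] at h0
  have hq : ∀ z, 0 ≤ q z := fun z => Finset.sum_nonneg fun v _ =>
    mul_nonneg (pow_nonneg ht.le _) (Complex.normSq_nonneg _)
  have h1 := (Finset.sum_eq_zero_iff_of_nonneg fun w _ =>
    mul_nonneg (inv_nonneg.2 (pow_nonneg ht.le _)) (hq _)).1 h0 1 (Finset.mem_univ _)
  rw [inv_one, bas_one, Matrix.one_mulVec, len_one, pow_zero, inv_one, one_mul] at h1
  funext v
  have h2 := (Finset.sum_eq_zero_iff_of_nonneg fun v _ =>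
    mul_nonneg (pow_nonneg ht.le _) (Complex.normSq_nonneg _)).1 h1 v (Finset.mem_univ _)
  exact Complex.normSq_eq_zero.1 ((mul_eq_zero.1 h2).resolve_left (pow_ne_zero _ ht.ne'))

theorem cdim_const {a b : ℝ} (ha : 0 < a) (hb : 0 < b) :
    cdim P (a : ℂ) = cdim P (b : ℂ) := by
  have hlam : ∀ s, Continuous fun t : ℝ => lam P (t : ℂ) s := fun s => by
    refine continuous_pi fun v => continuous_pi fun w => ?_
    simp only [lam, Matrix.of_apply]
    split_ifs <;> fun_prop
  have hbas : ∀ w, Continuous fun t : ℝ => bas P (t : ℂ) w := fun w => by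
    unfold bas lamWord
    induction rword P w with
    | nil => simpa using continuous_const
    | cons s L ih =>
      simp only [List.map_cons, List.prod_cons]
      exact (hlam s).mul ih
  have hinv : ∀ w : Weyl P, ContinuousOn (fun t : ℝ => ((t : ℂ) ^ len P w)⁻¹) (Set.Ioi 0) :=
    fun w => ContinuousOn.inv₀ (by fun_prop) fun t ht =>
      pow_ne_zero _ (Complex.ofReal_ne_zero.2 (ne_of_gt ht))
  have hgam : ContinuousOn (fun t : ℝ => gam P (t : ℂ)) (Set.Ioi 0) :=
    continuousOn_finsetSum _ fun w _ =>
      (hinv w).smul ((hbas w).mul (hbas _)).continuousOn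
  have hcas : ContinuousOn (fun t : ℝ => cas P (t : ℂ)) (Set.Ioi 0) := by
    refine continuousOn_pi.2 fun v => continuousOn_pi.2 fun u => ?_
    refine continuousOn_finsetSum _ fun w _ => (hinv w).mul (Continuous.continuousOn ?_)
    exact (continuous_apply v).comp (Continuous.matrix_mulVec
      (((hbas w).mul (hbas u)).mul (hbas _)) continuous_const)
  have hginv : ContinuousOn (fun t : ℝ => (gam P (t : ℂ))⁻¹) (Set.Ioi 0) := by
    intro t ht
    refine (continuousAt_matrix_inv _ ?_).comp_continuousWithinAt (hgam t ht)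
    rw [Ring.inverse_eq_inv']
    exact continuousAt_inv₀ (gam_isUnit ht).ne_zero
  have htr : ContinuousOn (fun t : ℝ => (cdim P (t : ℂ) : ℝ)) (Set.Ioi 0) := by
    have h : ContinuousOn (fun t : ℝ => (proj P (t : ℂ)).trace.re) (Set.Ioi 0) :=
      Complex.continuous_re.comp_continuousOn
        (continuous_id.matrix_trace.comp_continuousOn (hginv.mul hcas))
    refine h.congr fun t ht => ?_
    dsimp only
    rw [trace_proj (Complex.ofReal_ne_zero.2 (ne_of_gt ht)) (gam_isUnit ht), Complex.natCast_re]
  have hnat : ContinuousOn (fun t : ℝ => cdim P (t : ℂ)) (Set.Ioi 0) :=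
    Nat.isClosedEmbedding_coe_real.isInducing.continuousOn_iff.2 htr
  exact isPreconnected_Ioi.constant hnat ha hb

/-! ### the group algebra -/

theorem lam_one_dlt (s : P.S) (w : Weyl P) : lam P 1 s *ᵥ dlt P w = dlt P (si P s * w) := by
  rw [lam_dlt]; simp

theorem bas_one_dlt (w u : Weyl P) : bas P 1 w *ᵥ dlt P u = dlt P (w * u) := by
  conv_rhs => rw [← (rword_spec w).2]
  unfold bas
  induction rword P w with
  | nil => simp [lamWord]
  | cons s L ih =>
    rw [show lamWord P 1 (s :: L) = lam P 1 s * lamWord P 1 L from rfl, ← Matrix.mulVec_mulVec, ih,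
      lam_one_dlt, word_cons, mul_assoc]

theorem cdim_one : cdim P 1 = Nat.card (ConjClasses (Weyl P)) := by
  have hcas : ∀ (x : Weyl P → ℂ) v, (cas P 1 *ᵥ x) v = ∑ w, x (w⁻¹ * v * w) := by
    intro x v
    have hent : ∀ u, cas P 1 v u = ∑ w : Weyl P, (if w⁻¹ * v * w = u then 1 else 0) := fun u => by
      rw [cas, Matrix.of_apply]
      refine Finset.sum_congr rfl fun w _ => ?_
      rw [← Matrix.mulVec_mulVec, ← Matrix.mulVec_mulVec, bas_one_dlt, bas_one_dlt, bas_one_dlt,
        one_pow, inv_one, one_mul, mul_one, dlt, Pi.single_apply]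
      refine if_congr ⟨fun h => ?_, fun h => ?_⟩ rfl rfl
      · rw [h]; group
      · rw [← h]; group
    simp only [Matrix.mulVec, dotProduct, hent, Finset.sum_mul]
    rw [Finset.sum_comm]
    simp
  let inc : (ConjClasses (Weyl P) → ℂ) →ₗ[ℂ] (Weyl P → ℂ) :=
    LinearMap.funLeft ℂ ℂ ConjClasses.mk
  have hinj : Function.Injective inc :=
    LinearMap.funLeft_injective_of_surjective _ _ _ ConjClasses.mk_surjective
  have hrange : LinearMap.range (Matrix.toLin' (cas P 1)) = LinearMap.range inc := by
    refine le_antisymm ?_ ?_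
    · rintro _ ⟨x, rfl⟩
      refine ⟨fun c => (cas P 1 *ᵥ x) c.out, funext fun v => ?_⟩
      show (cas P 1 *ᵥ x) (ConjClasses.mk v).out = (cas P 1 *ᵥ x) v
      obtain ⟨g, hg⟩ := isConj_iff.1 (ConjClasses.mk_eq_mk_iff_isConj.1
        (Quotient.out_eq (ConjClasses.mk v)).symm : IsConj v _)
      rw [← hg, hcas, hcas, ← Equiv.sum_comp (Equiv.mulLeft g)]
      refine Finset.sum_congr rfl fun w _ => congrArg x ?_
      simp only [Equiv.coe_mulLeft]
      group
    · rintro _ ⟨f, rfl⟩
      refine ⟨(Fintype.card (Weyl P) : ℂ)⁻¹ • inc f, funext fun v => ?_⟩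
      rw [map_smul, Pi.smul_apply, Matrix.toLin'_apply, hcas]
      have : ∀ w : Weyl P, inc f (w⁻¹ * v * w) = inc f v := fun w => by
        show f (ConjClasses.mk _) = f (ConjClasses.mk v)
        exact congrArg f (ConjClasses.mk_eq_mk_iff_isConj.2 (isConj_iff.2 ⟨w, by group⟩))
      simp only [this, Finset.sum_const, Finset.card_univ, smul_eq_mul, nsmul_eq_mul]
      rw [← mul_assoc, inv_mul_cancel₀ (Nat.cast_ne_zero.2 Fintype.card_ne_zero), one_mul]
  rw [cdim, hrange, LinearMap.finrank_range_of_inj hinj, Module.finrank_fintype_fun_eq_card,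
    Nat.card_eq_fintype_card]

theorem cdim_eq_classes {q : ℕ} (hq : 0 < q) :
    cdim P (q : ℂ) = Nat.card (ConjClasses (Weyl P)) := by
  have := cdim_const (P := P) (a := (q : ℝ)) (b := 1) (by exact_mod_cast hq) one_pos
  push_cast at this
  rw [this, cdim_one]

end Cfsg.Agent.Lib.BN.Deform
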