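import Cfsg.Agent.Lib.BN.Coxeter

/-!
# The Weyl group of a rank two (B, N)-pair is dihedral
-/

set_option autoImplicit false
set_option linter.unusedVariables false

namespace Cfsg.Agent.Lib.BN

variable {G : Type*} [Group G] (P : Cfsg.BNPair G)

/-- The product of two distinguished involutions. -/
def rot (a b : P.S) : Weyl P := si P a * si P b

theorem rot_swap (a b : P.S) : rot P b a = (rot P a b)⁻¹ := by
  simp [rot, si_inv]

theorem orderOf_rot_swap (a b : P.S) : orderOf (rot P b a) = orderOf (rot P a b) := by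
  rw [rot_swap, orderOf_inv]

theorem rot_inv_mul (a b : P.S) : (rot P a b)⁻¹ * si P a = si P b := by
  rw [← rot_swap, rot, mul_assoc, si_mul_self, mul_one]

theorem si_mul_rot (a b : P.S) (k : ℤ) :
    si P a * rot P a b ^ k = rot P a b ^ (-k) * si P a := by
  have h : si P a * rot P a b * si P a = (rot P a b)⁻¹ := by
    rw [← rot_swap, rot, rot, si_mul_cancel]
  have h2 : si P a * rot P a b ^ k * si P a = ((rot P a b)⁻¹) ^ k := by
    rw [← h]
    have := conj_zpow (i := k) (a := si P a) (b := rot P a b)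
    rw [si_inv] at this
    exact this.symm
  rw [zpow_neg, ← inv_zpow, ← h2, mul_assoc, si_mul_self, mul_one]

theorem word_alt_even (a b : P.S) : ∀ i : ℕ, word P (alt a b (2 * i)) = rot P a b ^ (i : ℤ)
  | 0 => by simp [alt]
  | i + 1 => by
    rw [show 2 * (i + 1) = 2 * i + 1 + 1 by ring]
    show word P (a :: b :: alt a b (2 * i)) = _
    rw [word_cons, word_cons, word_alt_even a b i, ← mul_assoc, ← rot, zpow_natCast, zpow_natCast,
      pow_succ']

theorem word_alt_odd (a b : P.S) : ∀ i : ℕ,
    word P (alt a b (2 * i + 1)) = rot P a b ^ (i : ℤ) * si P a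
  | 0 => by simp [alt]
  | i + 1 => by
    rw [show 2 * (i + 1) + 1 = 2 * i + 1 + 1 + 1 by ring]
    show word P (a :: b :: alt a b (2 * i + 1)) = _
    rw [word_cons, word_cons, word_alt_odd a b i, ← mul_assoc, ← rot, zpow_natCast, zpow_natCast,
      pow_succ', mul_assoc]

theorem alt_add {α : Type*} : ∀ (i j : ℕ) (a b : α),
    alt a b (i + j) = alt a b i ++ (if Even i then alt a b j else alt b a j)
  | 0, j, a, b => by simp [alt]
  | i + 1, j, a, b => by
    rw [Nat.add_right_comm]
    show a :: alt b a (i + j) = a :: (alt b a i ++ _)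
    rw [alt_add i j b a]
    by_cases h : Even i <;> simp [h, Nat.even_add_one]

theorem two_le_orderOf_rot [Finite G] {a b : P.S} (hab : a ≠ b) : 2 ≤ orderOf (rot P a b) := by
  have h0 : 0 < orderOf (rot P a b) := orderOf_pos _
  have h1 : orderOf (rot P a b) ≠ 1 := by
    rw [Ne, orderOf_eq_one_iff]
    intro h
    have h2 := eq_inv_of_mul_eq_one_left h
    rw [si_inv] at h2
    exact hab (si_injective P h2)
  omega

theorem si_not_mem_zpowers {a b : P.S} (hab : a ≠ b) :
    si P a ∉ Subgroup.zpowers (rot P a b) := by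
  rintro ⟨k, hk⟩
  simp only at hk
  have hc : si P a * rot P a b = rot P a b * si P a := by
    rw [← hk]; exact ((Commute.refl _).zpow_left k).eq
  have hsq : rot P a b * rot P a b = 1 := by
    have h := si_mul_rot P a b 1
    rw [zpow_one, zpow_neg_one, hc] at h
    exact mul_eq_one_iff_eq_inv.mpr (mul_right_cancel h)
  have h2 : si P a = 1 ∨ si P a = rot P a b := by
    rcases Int.even_or_odd' k with ⟨i, rfl | rfl⟩
    · left; rw [← hk, zpow_mul, zpow_ofNat, pow_two, hsq, one_zpow]
    · right
      rw [← hk, zpow_add, zpow_mul, zpow_ofNat, pow_two, hsq, one_zpow, one_mul, zpow_one]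
  rcases h2 with h | h
  · exact si_ne_one P a h
  · exact si_ne_one P b (mul_eq_left.1 h.symm)

theorem eq_rot_zpow {a b : P.S} (hS : ∀ x : P.S, x = a ∨ x = b) (w : Weyl P) :
    ∃ k : ℤ, w = rot P a b ^ k ∨ w = rot P a b ^ k * si P a := by
  obtain ⟨L, rfl⟩ := exists_word P w
  induction L with
  | nil => exact ⟨0, Or.inl (by simp)⟩
  | cons s L ih =>
    obtain ⟨k, hk⟩ := ih
    rw [word_cons]
    rcases hS s with rfl | rfl
    · rcases hk with h | h <;> refine ⟨-k, ?_⟩ <;> rw [h]
      · exact Or.inr (si_mul_rot P s b k)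
      · exact Or.inl (by rw [← mul_assoc, si_mul_rot, mul_assoc, si_mul_self, mul_one])
    · rw [← rot_inv_mul P a s, mul_assoc]
      rcases hk with h | h <;> refine ⟨-k - 1, ?_⟩ <;> rw [h]
      · exact Or.inr (by rw [si_mul_rot, ← mul_assoc, ← zpow_neg_one, ← zpow_add]; ring_nf)
      · exact Or.inl (by
          rw [← mul_assoc (si P a), si_mul_rot, mul_assoc _ (si P a), si_mul_self, mul_one,
            ← zpow_neg_one, ← zpow_add]; ring_nf)

theorem card_weyl {a b : P.S} (hab : a ≠ b) (hS : ∀ x : P.S, x = a ∨ x = b) :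
    Nat.card (Weyl P) = 2 * orderOf (rot P a b) := by
  classical
  let f : Bool × Subgroup.zpowers (rot P a b) → Weyl P := fun x =>
    if x.1 then (x.2 : Weyl P) * si P a else x.2
  have hf : Function.Bijective f := by
    refine ⟨?_, fun w => ?_⟩
    · rintro ⟨e, g⟩ ⟨e', g'⟩ h
      cases e <;> cases e' <;> simp only [f, Bool.false_eq_true, if_false, if_true] at h
      · rw [Subtype.ext h]
      · exact absurd (eq_inv_mul_of_mul_eq h.symm ▸ mul_mem (inv_mem g'.2) g.2) (si_not_mem_zpowers P hab)
      · exact absurd (eq_inv_mul_of_mul_eq h ▸ mul_mem (inv_mem g.2) g'.2) (si_not_mem_zpowers P hab)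
      · rw [Subtype.ext (mul_right_cancel h)]
    · obtain ⟨k, h | h⟩ := eq_rot_zpow P hS w
      · exact ⟨(false, ⟨_, k, rfl⟩), by simp [f, h]⟩
      · exact ⟨(true, ⟨_, k, rfl⟩), by simp [f, h]⟩
  rw [← Nat.card_congr (Equiv.ofBijective f hf), Nat.card_prod, Nat.card_zpowers]
  simp

/-- Short alternating words are determined by their length and first letter. -/
theorem word_alt_ne {a b : P.S} (hab : a ≠ b) {i j : ℕ} (hij : i < j)
    (hj : j ≤ orderOf (rot P a b)) :
    word P (alt a b j) ≠ word P (alt a b i) ∧ word P (alt a b j) ≠ word P (alt b a i) := by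
  have hdvd : ∀ {k l : ℤ}, rot P a b ^ k = rot P a b ^ l → (orderOf (rot P a b) : ℤ) ∣ k - l := by
    intro k l h
    rw [orderOf_dvd_iff_zpow_eq_one, zpow_sub, h, mul_inv_cancel]
  have hmix : ∀ {k l : ℤ}, rot P a b ^ k ≠ rot P a b ^ l * si P a := fun {k l} h =>
    si_not_mem_zpowers P hab ⟨-l + k, by
      show rot P a b ^ (-l + k) = _
      rw [zpow_add, h, ← mul_assoc, ← zpow_add, neg_add_cancel, zpow_zero, one_mul]⟩
  have hb : ∀ k : ℤ, rot P b a ^ k = rot P a b ^ (-k) := fun k => by
    rw [rot_swap, inv_zpow, zpow_neg]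
  have hb' : ∀ k : ℤ, rot P b a ^ k * si P b = rot P a b ^ (-k - 1) * si P a := fun k => by
    rw [hb, ← rot_inv_mul P a b, ← mul_assoc, ← zpow_neg_one, ← zpow_add, sub_eq_add_neg]
  have hsmall : ∀ {z : ℤ}, (orderOf (rot P a b) : ℤ) ∣ z → 0 < z →
      z < (orderOf (rot P a b) : ℤ) → False := fun h h1 h2 => by
    have := Int.le_of_dvd h1 h; omega
  rcases Nat.even_or_odd' j with ⟨J, rfl | rfl⟩ <;> rcases Nat.even_or_odd' i with ⟨I, rfl | rfl⟩
  · constructor <;> intro h
    · rw [word_alt_even, word_alt_even] at h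
      exact hsmall (hdvd h) (by omega) (by omega)
    · rw [word_alt_even, word_alt_even, hb] at h
      exact hsmall (hdvd h) (by omega) (by omega)
  · constructor <;> intro h
    · rw [word_alt_even, word_alt_odd] at h; exact hmix h
    · rw [word_alt_even, word_alt_odd, hb'] at h; exact hmix h
  · constructor <;> intro h
    · rw [word_alt_odd, word_alt_even] at h; exact hmix h.symm
    · rw [word_alt_odd, word_alt_even, hb] at h; exact hmix h.symm
  · constructor <;> intro h
    · rw [word_alt_odd, word_alt_odd] at h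
      exact hsmall (hdvd (mul_right_cancel h)) (by omega) (by omega)
    · rw [word_alt_odd, word_alt_odd, hb'] at h
      exact hsmall (hdvd (mul_right_cancel h)) (by omega) (by omega)

theorem exists_alt_of_len {a b : P.S} (hS : ∀ x : P.S, x = a ∨ x = b) : ∀ (i : ℕ) (w : Weyl P),
    len P w = i → w = word P (alt a b i) ∨ w = word P (alt b a i)
  | 0, w, h => by simp [alt, eq_one_of_len_eq_zero P h]
  | i + 1, w, h => by
    obtain ⟨s, u, hw, hu⟩ : ∃ (s : P.S) (u : Weyl P), w = si P s * u ∧ len P u = i := by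
      obtain ⟨L, hL, hLw⟩ := exists_reduced P w
      rw [h] at hL
      rcases L with _ | ⟨s, L⟩
      · simp at hL
      refine ⟨s, word P L, by rw [← hLw, word_cons], ?_⟩
      have h1 := len_word_le P L
      have h2 := len_si_mul_le P s (word P L)
      rw [← word_cons, hLw] at h2
      simp only [List.length_cons] at hL
      omega
    subst hw
    rcases i with _ | i
    · rw [eq_one_of_len_eq_zero P hu] at *
      rcases hS s with rfl | rfl <;> simp [alt]
    have hkill : ∀ c c' : P.S, u = word P (alt c c' (i + 1)) → s ≠ c := by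
      rintro c c' he rfl
      have h1 : si P s * u = word P (alt c' s i) := by
        rw [he]; exact si_mul_cancel P s _
      have h2 := len_word_le P (alt c' s i)
      rw [← h1, h, length_alt] at h2
      omega
    rcases exists_alt_of_len hS (i + 1) u hu with he | he <;> have hk := hkill _ _ he <;>
      rcases hS s with rfl | rfl
    · exact absurd rfl hk
    · exact Or.inr (by rw [he]; rfl)
    · exact Or.inl (by rw [he]; rfl)
    · exact absurd rfl hk

theorem len_word_alt {a b : P.S} (hab : a ≠ b) (hS : ∀ x : P.S, x = a ∨ x = b) {j : ℕ}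
    (hj : j ≤ orderOf (rot P a b)) : len P (word P (alt a b j)) = j := by
  have h := len_word_le P (alt a b j)
  rw [length_alt] at h
  by_contra hne
  rcases exists_alt_of_len P hS _ _ rfl with he | he
  · exact (word_alt_ne P hab (lt_of_le_of_ne h hne) hj).1 he
  · exact (word_alt_ne P hab (lt_of_le_of_ne h hne) hj).2 he

end Cfsg.Agent.Lib.BN
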