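import Cfsg.Agent.Lib.BN.TraceRoots
import Cfsg.Agent.Lib.CharGalois
import Mathlib.NumberTheory.Niven
import Mathlib.NumberTheory.Real.Irrational
import Mathlib.Analysis.SpecialFunctions.Trigonometric.Basic
import Mathlib.RingTheory.RootsOfUnity.Complex

/-!
# The algebra behind the Feit–Higman theorem

The two generators of a rank two Hecke algebra, with the braid relation of length `n` and the vanishing
traces of the powers of their product, force `n` to be 2, 3, 4, 6 or 8.
-/

set_option autoImplicit false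
set_option linter.style.haveILetI false

namespace Cfsg.Agent.Lib.BN

open Module Matrix
open scoped Classical Real

variable {V : Type*} [AddCommGroup V] [Module ℂ V]

/-- The shape of an eigenvalue of the product of the generators. -/
theorem classify_eigen (T U : End ℂ V) (s t : ℕ) (hs : 2 ≤ s) (ht : 2 ≤ t) (n : ℕ) (hn : 3 ≤ n)
    (hT : T * T = ((s : ℂ) - 1) • T + (s : ℂ) • 1) (hU : U * U = ((t : ℂ) - 1) • U + (t : ℂ) • 1)
    (hev : ∀ m, n = 2 * m → (T * U) ^ m = (U * T) ^ m)
    (hodd : ∀ m, n = 2 * m + 1 → s = t ∧ T * ((T * U) ^ m * T) = (T * U) ^ m * T * U)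
    (r : ℂ) (hr : r ^ 2 = (s : ℂ) * t) (hrst : s = t → r = s)
    {v : V} (hv : v ≠ 0) {l : ℂ} (hl : (T * U) v = l • v) :
    l = (s : ℂ) * t ∨ l = 1 ∨ (Even n ∧ (l = -(s : ℂ) ∨ l = -(t : ℂ))) ∨
      (l ^ n = r ^ n ∧ l * l ≠ (s : ℂ) * t) := by
  have hs0 : (s : ℂ) ≠ 0 := Nat.cast_ne_zero.mpr (by omega)
  have ht0 : (t : ℂ) ≠ 0 := Nat.cast_ne_zero.mpr (by omega)
  have hTT : ∀ w, T (T w) = ((s : ℂ) - 1) • T w + (s : ℂ) • w := fun w => LinearMap.congr_fun hT w
  have hUU : ∀ w, U (U w) = ((t : ℂ) - 1) • U w + (t : ℂ) • w := fun w => LinearMap.congr_fun hU w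
  have hTinj : ∀ w, T w = 0 → w = 0 := fun w hw => by
    have h := hTT w
    rw [hw, map_zero, smul_zero, zero_add] at h
    exact (smul_eq_zero.mp h.symm).resolve_left hs0
  have hUinj : ∀ w, U w = 0 → w = 0 := fun w hw => by
    have h := hUU w
    rw [hw, map_zero, smul_zero, zero_add] at h
    exact (smul_eq_zero.mp h.symm).resolve_left ht0
  have hl' : T (U v) = l • v := hl
  have hl0 : l ≠ 0 := fun h => hv (hUinj _ (hTinj _ (by rw [hl', h, zero_smul])))
  have hTeq : ∀ w, T w = l • v → w = U v := fun w hw => by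
    have := hTinj (w - U v) (by rw [map_sub, hw, hl', sub_self])
    exact sub_eq_zero.mp this
  have hpowv : ∀ k, ((T * U) ^ k) v = l ^ k • v := by
    intro k
    induction k with
    | zero => simp
    | succ k ih => rw [pow_succ, Module.End.mul_apply, hl, map_smul, ih, smul_smul, pow_succ']
  by_cases hdim : ∃ e : ℂ, T v = e • v
  · -- a common eigenvector
    obtain ⟨e, he⟩ := hdim
    have hec : e * e = ((s : ℂ) - 1) * e + s := by
      have h := hTT v
      rw [he, map_smul, he, smul_smul, smul_smul, ← add_smul] at h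
      exact smul_left_injective ℂ hv h
    have he0 : e ≠ 0 := fun h => by rw [h] at hec; simp at hec; exact hs0 (by exact_mod_cast hec.symm)
    have hUv : U v = (l / e) • v :=
      (hTeq _ (by rw [map_smul, he, smul_smul, div_mul_cancel₀ _ he0])).symm
    have hec' : (l / e) * (l / e) = ((t : ℂ) - 1) * (l / e) + t := by
      have h := hUU v
      rw [hUv, map_smul, hUv, smul_smul, smul_smul, ← add_smul] at h
      exact smul_left_injective ℂ hv h
    have he1 : e = s ∨ e = -1 := by
      have : (e - s) * (e + 1) = 0 := by linear_combination hec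
      exact (mul_eq_zero.mp this).imp sub_eq_zero.mp eq_neg_of_add_eq_zero_left
    have he2 : l / e = t ∨ l / e = -1 := by
      have : (l / e - t) * (l / e + 1) = 0 := by linear_combination hec'
      exact (mul_eq_zero.mp this).imp sub_eq_zero.mp eq_neg_of_add_eq_zero_left
    have hle : l = e * (l / e) := (mul_div_cancel₀ l he0).symm
    rcases Nat.even_or_odd' n with ⟨m, hm | hm⟩
    · rcases he1 with e1 | e1 <;> rcases he2 with e2 | e2 <;> rw [e2] at hle <;> rw [e1] at hle
      · exact Or.inl hle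
      · exact Or.inr (Or.inr (Or.inl ⟨⟨m, by omega⟩, Or.inl (by rw [hle]; ring)⟩))
      · exact Or.inr (Or.inr (Or.inl ⟨⟨m, by omega⟩, Or.inr (by rw [hle]; ring)⟩))
      · exact Or.inr (Or.inl (by rw [hle]; ring))
    · obtain ⟨hst, hbr⟩ := hodd m hm
      have h := LinearMap.congr_fun hbr v
      simp only [Module.End.mul_apply] at h
      rw [he, hUv, map_smul, map_smul T (l / e), he, map_smul, map_smul, hpowv, map_smul T, he,
        map_smul, hpowv] at h
      simp only [smul_smul] at h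
      have h' := smul_left_injective ℂ hv h
      have hee : e = l / e := by
        apply mul_left_cancel₀ (mul_ne_zero (pow_ne_zero m hl0) he0)
        linear_combination h'
      rw [← hee] at hle
      rcases he1 with e1 | e1 <;> rw [e1] at hle
      · exact Or.inl (by rw [hle, ← hst])
      · exact Or.inr (Or.inl (by rw [hle]; ring))
  · -- a two-dimensional orbit
    set u := T v with hu
    have hind : ∀ a b : ℂ, a • v + b • u = 0 → a = 0 ∧ b = 0 := by
      intro a b h
      have hb : b = 0 := by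
        by_contra hb
        refine hdim ⟨-(b⁻¹ * a), ?_⟩
        have h1 := congrArg (fun w => b⁻¹ • w) h
        simp only [smul_add, smul_smul, inv_mul_cancel₀ hb, one_smul, smul_zero] at h1
        rw [neg_smul]
        exact eq_neg_of_add_eq_zero_right h1
      rw [hb, zero_smul, add_zero] at h
      exact ⟨(smul_eq_zero.mp h).resolve_right hv, hb⟩
    have hTu : T u = ((s : ℂ) - 1) • u + (s : ℂ) • v := hTT v
    have hUv : U v = (l / s) • (u - ((s : ℂ) - 1) • v) := (hTeq _ (by
      rw [map_smul, map_sub, map_smul, hTu, ← hu, add_sub_cancel_left, smul_smul,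
        div_mul_cancel₀ _ hs0])).symm
    have hUu : U u = (((s : ℂ) - 1) + (s / l) * ((t : ℂ) - 1)) • U v + ((s : ℂ) * t / l) • v := by
      have h := hUU v
      nth_rewrite 1 [hUv] at h
      rw [map_smul, map_sub, map_smul] at h
      have h2 := congrArg (fun w => ((s : ℂ) / l) • w) h
      simp only [smul_smul, smul_add] at h2
      rw [show (s : ℂ) / l * (l / s) = 1 by field_simp, one_smul, sub_eq_iff_eq_add] at h2
      rw [h2, add_smul, show (s : ℂ) * t / l = s / l * t by ring]
      abel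
    set μ := (s : ℂ) * t / l with hμ
    set κ := ((s : ℂ) - 1) * l + s * ((t : ℂ) - 1) with hκ
    have hlμ : l * μ = (s : ℂ) * t := mul_div_cancel₀ _ hl0
    have hXu : (T * U) u = μ • u + κ • v := by
      show T (U u) = _
      rw [hUu, map_add, map_smul, map_smul, hl', smul_smul, ← hu, hκ, hμ,
        show (((s : ℂ) - 1) + s / l * ((t : ℂ) - 1)) * l = ((s : ℂ) - 1) * l + s * ((t : ℂ) - 1) by
          field_simp]
      abel
    have hpowu : ∀ k : ℕ, ∃ c : ℂ, ((T * U) ^ k) u = μ ^ k • u + c • v ∧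
        (l = μ → c * l = k * κ * l ^ k) := by
      intro k
      induction k with
      | zero => exact ⟨0, by simp, fun _ => by simp⟩
      | succ k ih =>
        obtain ⟨c, hc, hc'⟩ := ih
        refine ⟨μ ^ k * κ + c * l, ?_, fun e => ?_⟩
        · rw [pow_succ', Module.End.mul_apply, hc, map_add, map_smul, map_smul, hXu, hl, smul_add,
            smul_smul, smul_smul, smul_smul, pow_succ, add_smul]
          abel
        · rw [add_mul, hc' e, ← e]
          push_cast
          ring
    rcases Nat.even_or_odd' n with ⟨m, hm | hm⟩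
    · have hcomm : T * (T * U) ^ m = (T * U) ^ m * T := by
        conv_lhs => rw [hev m hm]
        clear * -
        induction m with
        | zero => simp
        | succ m ih =>
          rw [pow_succ, ← mul_assoc, ih, pow_succ]
          noncomm_ring
      obtain ⟨c, hc, hc'⟩ := hpowu m
      have h := LinearMap.congr_fun hcomm v
      rw [Module.End.mul_apply, Module.End.mul_apply, hpowv, map_smul, ← hu, hc] at h
      obtain ⟨h1, h2⟩ := hind c (μ ^ m - l ^ m) (by rw [sub_smul, h]; abel)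
      have hln : l ^ n = r ^ n := by
        rw [hm, pow_mul r, hr, ← hlμ, mul_pow, sub_eq_zero.mp h2, two_mul, pow_add]
      by_cases hll : l * l = (s : ℂ) * t
      · have hlm : l = μ := by
          rw [hμ, eq_div_iff hl0]; exact hll
        have h3 := hc' hlm
        rw [h1, zero_mul] at h3
        have hκ0 : κ = 0 := by
          rcases mul_eq_zero.mp h3.symm with h4 | h4
          · exact (mul_eq_zero.mp h4).resolve_left (Nat.cast_ne_zero.mpr (by omega))
          · exact absurd h4 (pow_ne_zero _ hl0)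
        have h5 : ((s : ℂ) - t) * ((s : ℂ) * t - 1) * s = 0 := by
          have e : ((s : ℂ) - 1) * l = -((s : ℂ) * ((t : ℂ) - 1)) := eq_neg_of_add_eq_zero_left hκ0
          have e2 : ((s : ℂ) - 1) ^ 2 * ((s : ℂ) * t) = (s : ℂ) ^ 2 * ((t : ℂ) - 1) ^ 2 := by
            rw [← hll]
            linear_combination (((s : ℂ) - 1) * l - (s : ℂ) * ((t : ℂ) - 1)) * e
          linear_combination e2
        have hst : s = t := by
          rcases mul_eq_zero.mp h5 with h6 | h6
          · rcases mul_eq_zero.mp h6 with h7 | h7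
            · exact_mod_cast sub_eq_zero.mp h7
            · exfalso
              have h8 : s * t = 1 := by exact_mod_cast sub_eq_zero.mp h7
              rw [mul_eq_one] at h8
              omega
          · exact absurd h6 hs0
        refine Or.inr (Or.inr (Or.inl ⟨⟨m, by omega⟩, Or.inl ?_⟩))
        have hs1 : (s : ℂ) - 1 ≠ 0 := by
          rw [sub_ne_zero]; exact_mod_cast (by omega : s ≠ 1)
        apply mul_left_cancel₀ hs1
        rw [hκ, ← hst] at hκ0
        linear_combination hκ0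
      · exact Or.inr (Or.inr (Or.inr ⟨hln, hll⟩))
    · obtain ⟨hst, hbr⟩ := hodd m hm
      obtain ⟨c, hc, hc'⟩ := hpowu m
      have h := LinearMap.congr_fun hbr v
      have hR : ((T * U) ^ m * T * U) v = (l * l ^ m) • v := by
        rw [mul_assoc, Module.End.mul_apply, hl, map_smul, hpowv, smul_smul]
      rw [Module.End.mul_apply, Module.End.mul_apply, ← hu, hc, map_add, map_smul, map_smul, hTu,
        ← hu, hR] at h
      obtain ⟨h1, h2⟩ := hind (μ ^ m * s - l * l ^ m) (μ ^ m * ((s : ℂ) - 1) + c) (by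
        rw [sub_smul, add_smul, ← smul_smul, ← smul_smul _ ((s : ℂ) - 1), ← h, smul_add]
        abel)
      have hrs := hrst hst
      have hln : l ^ n = r ^ n := by
        have h3 : l * l ^ m = μ ^ m * s := (sub_eq_zero.mp h1).symm
        calc l ^ n = (l * l ^ m) * l ^ m := by rw [hm]; ring
          _ = (l * μ) ^ m * s := by rw [h3]; ring
          _ = r ^ n := by rw [hlμ, ← hst, hrs, hm]; ring
      refine Or.inr (Or.inr (Or.inr ⟨hln, fun hll => ?_⟩))
      have hlm : l = μ := by rw [hμ, eq_div_iff hl0]; exact hll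
      have hls : l = s := by
        rw [← hst] at hll
        rcases mul_self_eq_mul_self_iff.mp hll with e | e
        · exact e
        · exfalso
          rw [hm, hrs, e, Odd.neg_pow ⟨m, rfl⟩, neg_eq_iff_add_eq_zero, ← two_mul, mul_eq_zero] at hln
          exact hln.elim two_ne_zero (pow_ne_zero _ hs0)
      have h4 : ((s : ℂ) - 1) * (s : ℂ) ^ (m + 1) + m * κ * (s : ℂ) ^ m = 0 := by
        have h5 := hc' hlm
        rw [← hlm] at h2
        rw [hls] at h5 h2
        linear_combination -h5 + (s : ℂ) * h2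
      rw [hκ, hls, ← hst, show (s : ℂ) - 1 = ((s - 1 : ℕ) : ℂ) by push_cast [show 1 ≤ s by omega]; ring] at h4
      have h6 : (s - 1) * s ^ (m + 1) + m * ((s - 1) * s + s * (s - 1)) * s ^ m = 0 := by
        exact_mod_cast h4
      have : 0 < (s - 1) * s ^ (m + 1) := Nat.mul_pos (by omega) (pow_pos (by omega) _)
      omega

section

variable {Ω : Type*} [Fintype Ω] [DecidableEq Ω]

open scoped ComplexConjugate

/-- The values forced on the cosine by rationality of the multiplicities. -/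
theorem exists_rat_cos [Nonempty Ω] (T U : Matrix Ω Ω ℂ) (s t : ℕ) (hs : 2 ≤ s) (ht : 2 ≤ t)
    (n : ℕ) (hn : 3 ≤ n)
    (hT : T * T = ((s : ℂ) - 1) • T + (s : ℂ) • 1) (hU : U * U = ((t : ℂ) - 1) • U + (t : ℂ) • 1)
    (hev : ∀ m, n = 2 * m → (T * U) ^ m = (U * T) ^ m)
    (hodd : ∀ m, n = 2 * m + 1 → s = t ∧ T * ((T * U) ^ m * T) = (T * U) ^ m * T * U)
    (htr : ∀ k, 1 ≤ k → k < n → ((T * U) ^ k).trace = 0)
    (hfix : ∀ σ : ℂ ≃+* ℂ, (T * U).map σ = T * U) :
    (∀ j : ℕ, 0 < j → 2 * j < n → ∃ q : ℚ, √((s * t : ℕ) : ℝ) * Real.cos (2 * π * j / n) = q) ∧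
      (∀ m, n = 2 * m + 1 → s = t) := by
  refine ⟨?_, fun m hm => (hodd m hm).1⟩
  set rr : ℝ := √((s * t : ℕ) : ℝ) with hrr
  set r : ℂ := (rr : ℂ) with hrdef
  have hrr2 : rr ^ 2 = ((s * t : ℕ) : ℝ) := Real.sq_sqrt (Nat.cast_nonneg _)
  have hrrpos : 0 < rr := Real.sqrt_pos.mpr (Nat.cast_pos.mpr (by positivity))
  have hr : r ^ 2 = (s : ℂ) * t := by
    rw [hrdef, ← Complex.ofReal_pow, hrr2]; push_cast; rfl
  have hr0 : r ≠ 0 := Complex.ofReal_ne_zero.mpr hrrpos.ne'
  have hrst : s = t → r = s := by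
    rintro rfl
    rw [hrdef, hrr, Nat.cast_mul, Real.sqrt_mul_self (Nat.cast_nonneg _), Complex.ofReal_natCast]
  obtain ⟨Rn, hRn⟩ : ∃ Rn : ℕ, r ^ n = (Rn : ℂ) := by
    rcases Nat.even_or_odd' n with ⟨m, hm | hm⟩
    · exact ⟨(s * t) ^ m, by rw [hm, pow_mul, hr]; push_cast; rfl⟩
    · exact ⟨s ^ n, by rw [hrst (hodd m hm).1]; push_cast; rfl⟩
  let L : Finset ℂ := {((s : ℂ) * t), 1} ∪ (if Even n then {-(s : ℂ), -(t : ℂ)} else ∅)
  have hLmem : ∀ μ ∈ L, μ = (s : ℂ) * t ∨ μ = 1 ∨ (Even n ∧ (μ = -(s : ℂ) ∨ μ = -(t : ℂ))) := by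
    intro μ hμ
    by_cases he : Even n <;> simp [L, he] at hμ ⊢ <;> tauto
  have hmemL : ∀ μ, (μ = (s : ℂ) * t ∨ μ = 1 ∨ (Even n ∧ (μ = -(s : ℂ) ∨ μ = -(t : ℂ)))) → μ ∈ L := by
    intro μ hμ
    by_cases he : Even n <;> simp [L, he] at hμ ⊢ <;> tauto
  have hLint : ∀ μ ∈ L, ∃ z : ℤ, z ≠ 0 ∧ μ = (z : ℂ) := by
    intro μ hμ
    rcases hLmem μ hμ with h | h | ⟨-, h | h⟩
    · exact ⟨s * t, by positivity, by rw [h]; push_cast; rfl⟩
    · exact ⟨1, one_ne_zero, by rw [h]; simp⟩
    · exact ⟨-s, by omega, by rw [h]; simp⟩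
    · exact ⟨-t, by omega, by rw [h]; simp⟩
  set X := T * U with hX
  let c : ℂ → ℂ := fun μ => (X.charpoly.roots.count μ : ℂ)
  let φ := (Matrix.toLinAlgEquiv' : Matrix Ω Ω ℂ ≃ₐ[ℂ] _)
  have hcl : ∀ μ ∈ X.charpoly.roots, μ ∈ L ∨ (μ ^ n = r ^ n ∧ μ * μ ≠ (s : ℂ) * t) := by
    intro μ hμ
    obtain ⟨v, hv, hvμ⟩ := exists_eigvec hμ
    have hφ : ∀ m, φ ((T * U) ^ m) = (φ T * φ U) ^ m := fun m => by rw [map_pow, map_mul]
    have hφ' : ∀ m, φ ((U * T) ^ m) = (φ U * φ T) ^ m := fun m => by rw [map_pow, map_mul]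
    have h := classify_eigen (φ T) (φ U) s t hs ht n hn
      (by rw [← map_mul, hT, map_add, map_smul, map_smul, map_one])
      (by rw [← map_mul, hU, map_add, map_smul, map_smul, map_one])
      (fun m hm => by rw [← hφ, ← hφ', hev m hm])
      (fun m hm => ⟨(hodd m hm).1, by rw [← hφ, ← map_mul, ← map_mul, (hodd m hm).2, map_mul]⟩)
      r hr hrst hv (l := μ) (by rw [← map_mul]; exact hvμ)
    rcases h with h | h | h | h
    · exact Or.inl (hmemL μ (Or.inl h))
    · exact Or.inl (hmemL μ (Or.inr (Or.inl h)))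
    · exact Or.inl (hmemL μ (Or.inr (Or.inr h)))
    · exact Or.inr h
  let adm : ℂ → Prop := fun l => l ^ n = r ^ n ∧ l ∉ L
  have hl0 : ∀ l, adm l → l ≠ 0 := fun l hl h => by
    have := hl.1
    rw [h, zero_pow (by omega)] at this
    exact pow_ne_zero n hr0 this.symm
  let G : ℂ → ℂ → ℂ := fun μ l => ∑ k ∈ Finset.range n, (μ / l) ^ k
  have key : ∀ l, adm l → (n : ℂ) * c l + ∑ μ ∈ L, c μ * G μ l = (Fintype.card Ω : ℂ) := by
    intro l hl
    have hz := hl0 l hl
    have h1 : ∑ μ ∈ X.charpoly.roots.toFinset, c μ * G μ l = (Fintype.card Ω : ℂ) := by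
      simp only [G, Finset.mul_sum]
      rw [Finset.sum_comm, Finset.sum_eq_single 0]
      · have h := trace_pow_eq_sum_roots X 0
        simp only [pow_zero, Matrix.trace_one, mul_one] at h ⊢
        exact h.symm
      · intro k hk hk0
        have h := trace_pow_eq_sum_roots X k
        rw [htr k (by omega) (Finset.mem_range.mp hk)] at h
        simp only [div_pow, mul_div_assoc', ← Finset.sum_div, c]
        rw [← h, zero_div]
      · intro h; exact absurd (Finset.mem_range.mpr (by omega)) h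
    have hGl : G l l = n := by simp [G, div_self hz]
    have hG0 : ∀ μ, μ ^ n = l ^ n → μ ≠ l → G μ l = 0 := by
      intro μ hμ hne
      have h := geom_sum_mul (μ / l) n
      rw [div_pow, hμ, div_self (pow_ne_zero n hz), sub_self, mul_eq_zero, sub_eq_zero,
        div_eq_one_iff_eq hz] at h
      exact h.resolve_right hne
    rw [← hGl, mul_comm (G l l) (c l), ← Finset.sum_insert (f := fun μ => c μ * G μ l) hl.2, ← h1]
    rw [Finset.sum_subset (Finset.subset_union_left (s₁ := insert l L)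
        (s₂ := X.charpoly.roots.toFinset)) (f := fun μ => c μ * G μ l) ?_,
      ← Finset.sum_subset (Finset.subset_union_right (s₁ := insert l L)
        (s₂ := X.charpoly.roots.toFinset)) (f := fun μ => c μ * G μ l) ?_]
    · intro μ _ hμR
      simp only [c]
      rw [Multiset.count_eq_zero.mpr (by simpa using hμR), Nat.cast_zero, zero_mul]
    · intro μ hμ hμL
      rw [Finset.mem_insert, not_or] at hμL
      rcases Finset.mem_union.mp hμ with h | h
      · exact absurd h (by simp [hμL.1, hμL.2])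
      · rcases hcl μ (Multiset.mem_toFinset.mp h) with h' | ⟨h', -⟩
        · exact absurd h' hμL.2
        · show c μ * G μ l = 0
          rw [hG0 μ (h'.trans hl.1.symm) hμL.1, mul_zero]
  -- symmetries
  have hσL : ∀ (σ : ℂ ≃+* ℂ) (l : ℂ), adm l → adm (σ l) := fun σ l hl => ⟨by
    rw [← map_pow, hl.1, hRn, map_natCast], fun h => hl.2 (by
    obtain ⟨z, -, hz⟩ := hLint _ h
    have : l = σ l := σ.injective (by rw [hz, map_intCast])
    rw [this]; exact h)⟩
  have hcσ : ∀ (σ : ℂ ≃+* ℂ) (l : ℂ), c (σ l) = c l := fun σ l => by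
    simp only [c]; rw [count_roots_map σ (hfix σ)]
  have hconj : ∀ l, adm l → conj l = (s : ℂ) * t / l := by
    intro l hl
    have h1 : ‖l‖ = rr := by
      have h2 := congrArg norm hl.1
      rw [norm_pow, norm_pow, hrdef, Complex.norm_real, Real.norm_of_nonneg hrrpos.le] at h2
      exact (pow_left_inj₀ (norm_nonneg _) hrrpos.le (by omega)).mp h2
    rw [eq_div_iff (hl0 l hl), Complex.conj_mul', h1, ← Complex.ofReal_pow, hrr2]
    push_cast
    rfl
  have hadmconj : ∀ l, adm l → adm ((s : ℂ) * t / l) := fun l hl =>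
    hconj l hl ▸ hσL Complex.conjAe.toRingEquiv l hl
  let x : ℂ → ℂ := fun l => (l + (s : ℂ) * t / l) / 2
  have key2 : ∀ l, adm l → 2 * (n : ℂ) * c l +
      ∑ μ ∈ L, c μ * (G μ l + G μ ((s : ℂ) * t / l)) = 2 * (Fintype.card Ω : ℂ) := by
    intro l hl
    have h1 := key l hl
    have h2 := key _ (hadmconj l hl)
    have h3 : c ((s : ℂ) * t / l) = c l := by
      rw [← hconj l hl]; exact hcσ Complex.conjAe.toRingEquiv l
    rw [h3] at h2
    simp only [mul_add, Finset.sum_add_distrib]
    linear_combination h1 + h2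
  have hGid : ∀ μ l, adm l → (G μ l + G μ ((s : ℂ) * t / l)) * ((s : ℂ) * t - 2 * μ * x l + μ ^ 2) =
      (1 - μ ^ n / r ^ n) * (2 * ((s : ℂ) * t) - 2 * μ * x l) := by
    intro μ l hl
    have hG : ∀ l, adm l → G μ l * (l - μ) = l * (1 - μ ^ n / r ^ n) := by
      intro l hl
      have h := geom_sum_mul (μ / l) n
      rw [div_pow, hl.1] at h
      calc G μ l * (l - μ) = -(l * (G μ l * (μ / l - 1))) := by
            field_simp [hl0 l hl]; ring
        _ = l * (1 - μ ^ n / r ^ n) := by rw [h]; ring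
    have e1 := hG l hl
    have e2 := hG _ (hadmconj l hl)
    have e3 : l * ((s : ℂ) * t / l) = (s : ℂ) * t := mul_div_cancel₀ _ (hl0 l hl)
    simp only [x]
    generalize (s : ℂ) * t / l = l' at e1 e2 e3 ⊢
    linear_combination (l' - μ) * e1 + (l - μ) * e2 +
      (2 * (1 - μ ^ n / r ^ n) - (G μ l + G μ l')) * e3
  have hne : ∀ μ ∈ L, ∀ l, adm l → (s : ℂ) * t - 2 * μ * x l + μ ^ 2 ≠ 0 := by
    intro μ hμ l hl h
    have e3 : l * ((s : ℂ) * t / l) = (s : ℂ) * t := mul_div_cancel₀ _ (hl0 l hl)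
    have h' : (l - μ) * ((s : ℂ) * t / l - μ) = 0 := by
      simp only [x] at h; linear_combination h + e3
    rcases mul_eq_zero.mp h' with h | h <;> rw [sub_eq_zero] at h
    · exact hl.2 (h ▸ hμ)
    · exact (hadmconj l hl).2 (h.symm ▸ hμ)
  have hst1 : (s : ℂ) * t ∈ L := hmemL _ (Or.inl rfl)
  have h1L : (1 : ℂ) ∈ L := hmemL _ (Or.inr (Or.inl rfl))
  have hA : ∀ l, adm l → 1 + (s : ℂ) * t - 2 * x l ≠ 0 := fun l hl h =>
    hne 1 h1L l hl (by linear_combination h)
  have hstne : (s : ℂ) * t ≠ 0 := by rw [← hr]; exact pow_ne_zero 2 hr0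
  have hαA : ∀ μ, μ = (s : ℂ) * t ∨ μ = 1 → ∃ a b : ℂ, ∀ l, adm l →
      (G μ l + G μ ((s : ℂ) * t / l)) * (1 + (s : ℂ) * t - 2 * x l) = a + b * x l := by
    rintro μ (rfl | rfl)
    · refine ⟨2 * (1 - ((s : ℂ) * t) ^ n / r ^ n), -(2 * (1 - ((s : ℂ) * t) ^ n / r ^ n)),
        fun l hl => mul_left_cancel₀ hstne ?_⟩
      linear_combination hGid ((s : ℂ) * t) l hl
    · refine ⟨2 * ((s : ℂ) * t) * (1 - 1 ^ n / r ^ n), -(2 * (1 - 1 ^ n / r ^ n)), fun l hl => ?_⟩
      linear_combination hGid 1 l hl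
  -- some admissible root occurs
  have hnonzero : ∃ l, adm l ∧ c l ≠ 0 := by
    by_contra! hc
    have hall : ∀ μ ∈ X.charpoly.roots, μ ∈ L := fun μ hμ => by
      by_contra hμL
      rcases hcl μ hμ with h | ⟨h, -⟩
      · exact hμL h
      · exact Nat.cast_ne_zero.mpr (Multiset.count_ne_zero.mpr hμ) (hc μ ⟨h, hμL⟩)
    have h0 := trace_pow_eq_sum_roots X 2
    rw [htr 2 (by omega) (by omega)] at h0
    have h1 := trace_pow_eq_sum_roots X 0
    simp only [pow_zero, Matrix.trace_one, mul_one] at h1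
    have hne' : X.charpoly.roots.toFinset.Nonempty := by
      by_contra he
      rw [Finset.not_nonempty_iff_eq_empty] at he
      rw [he, Finset.sum_empty, Nat.cast_eq_zero] at h1
      exact Fintype.card_ne_zero h1
    have hpos : 0 < ∑ μ ∈ X.charpoly.roots.toFinset, ((X.charpoly.roots.count μ : ℂ) * μ ^ 2).re := by
      refine Finset.sum_pos (fun μ hμ => ?_) hne'
      obtain ⟨z, hz, rfl⟩ := hLint μ (hall μ (Multiset.mem_toFinset.mp hμ))
      have : ((X.charpoly.roots.count (z : ℂ) : ℂ) * (z : ℂ) ^ 2).re =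
          (X.charpoly.roots.count (z : ℂ) : ℝ) * (z : ℝ) ^ 2 := by
        simp [pow_two]
      rw [this]
      exact mul_pos (Nat.cast_pos.mpr (Multiset.count_pos.mpr (Multiset.mem_toFinset.mp hμ)))
        (pow_two_pos_of_ne_zero (Int.cast_ne_zero.mpr hz))
    rw [← Complex.re_sum, ← h0, Complex.zero_re] at hpos
    exact lt_irrefl _ hpos
  -- the real root has multiplicity zero
  have hc0 : ∀ l, adm l → l * l = (s : ℂ) * t → c l = 0 := by
    intro l hl hll
    simp only [c, Nat.cast_eq_zero, Multiset.count_eq_zero]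
    intro h
    rcases hcl l h with h' | ⟨-, h'⟩
    · exact hl.2 h'
    · exact h' hll
  have hnotL : ∀ y : ℝ, y ^ 2 = ((s * t : ℕ) : ℝ) → (0 < y ∨ s ≠ t) → (y : ℂ) ∉ L := by
    intro y hy hyy hmem
    have hsR : (2 : ℝ) ≤ s := by exact_mod_cast hs
    have htR : (2 : ℝ) ≤ t := by exact_mod_cast ht
    push_cast at hy
    rcases hLmem _ hmem with h | h | ⟨-, h | h⟩
    · have : y = (s : ℝ) * t := by exact_mod_cast h
      rw [this] at hy; nlinarith [mul_le_mul hsR htR (by norm_num) (by linarith)]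
    · have : y = 1 := by exact_mod_cast h
      rw [this] at hy; nlinarith [mul_le_mul hsR htR (by norm_num) (by linarith)]
    · have e : y = -(s : ℝ) := by exact_mod_cast h
      rcases hyy with h' | h'
      · rw [e] at h'; linarith
      · rw [e] at hy
        exact h' (by exact_mod_cast mul_left_cancel₀ (by linarith : (s : ℝ) ≠ 0) (by linear_combination hy : (s : ℝ) * s = s * t))
    · have e : y = -(t : ℝ) := by exact_mod_cast h
      rcases hyy with h' | h'
      · rw [e] at h'; linarith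
      · rw [e] at hy
        exact h' (by exact_mod_cast (mul_left_cancel₀ (by linarith : (t : ℝ) ≠ 0) (by linear_combination hy : (t : ℝ) * t = t * s)).symm)
  have hradm : adm r := ⟨rfl, hnotL rr hrr2 (Or.inl hrrpos)⟩
  have hcr : c r = 0 := hc0 r hradm (by rw [← sq, hr])
  have hxr : x r = r := by
    simp only [x]; rw [← hr]; field_simp; ring
  have hxσ : ∀ (σ : ℂ ≃+* ℂ) l, x (σ l) = σ (x l) := fun σ l => by
    simp only [x, map_div₀, map_add, map_mul, map_natCast, map_ofNat]
  intro j hj hjn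
  set θ : ℝ := 2 * π * j / n with hθ
  set l : ℂ := r * Complex.exp (θ * Complex.I) with hl
  have hnR : (0 : ℝ) < n := Nat.cast_pos.mpr (by omega)
  have hθ0 : 0 < θ := by rw [hθ]; positivity
  have hθπ : θ < π := by
    rw [hθ, div_lt_iff₀ hnR]
    have : (2 * j : ℝ) < n := by exact_mod_cast hjn
    nlinarith [Real.pi_pos]
  have him : l.im = rr * Real.sin θ := by
    rw [hl, hrdef, Complex.im_ofReal_mul, Complex.exp_ofReal_mul_I_im]
  have hre : l.re = rr * Real.cos θ := by
    rw [hl, hrdef, Complex.re_ofReal_mul, Complex.exp_ofReal_mul_I_re]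
  have him0 : l.im ≠ 0 := by
    rw [him]; exact (mul_pos hrrpos (Real.sin_pos_of_pos_of_lt_pi hθ0 hθπ)).ne'
  have hadm : adm l := by
    refine ⟨?_, fun h => ?_⟩
    · rw [hl, mul_pow, ← Complex.exp_nat_mul]
      rw [show (n : ℂ) * ((θ : ℂ) * Complex.I) = (j : ℕ) * (2 * π * Complex.I) by
        rw [hθ]; push_cast; field_simp [show (n : ℂ) ≠ 0 from Nat.cast_ne_zero.mpr (by omega)],
        Complex.exp_nat_mul_two_pi_mul_I, mul_one]
    · obtain ⟨z, -, hz⟩ := hLint _ h
      exact him0 (by rw [hz, Complex.intCast_im])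
  have hxl : x l = ((rr * Real.cos θ : ℝ) : ℂ) := by
    simp only [x]
    rw [← hconj l hadm, Complex.add_conj, hre]
    push_cast
    ring
  have hfixed : ∀ σ : ℂ ≃+* ℂ, σ (x l) = x l := by
    intro σ
    rw [← hxσ]
    have hadm' := hσL σ l hadm
    by_contra hne'
    by_cases hst : s = t
    · -- equal parameters
      have hAll : ∀ μ ∈ L, ∃ a b : ℂ, ∀ l, adm l →
          (G μ l + G μ ((s : ℂ) * t / l)) * (1 + (s : ℂ) * t - 2 * x l) = a + b * x l := by
        intro μ hμ
        rcases hLmem μ hμ with h | h | ⟨he, h⟩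
        · exact hαA μ (Or.inl h)
        · exact hαA μ (Or.inr h)
        · refine ⟨0, 0, fun l hl => ?_⟩
          have hμs : μ = -(s : ℂ) := by rcases h with h | h <;> simp [h, hst]
          have hμn : μ ^ n / r ^ n = 1 := by
            rw [hμs, he.neg_pow, hrst hst, div_self (pow_ne_zero n (by exact_mod_cast (by omega : s ≠ 0)))]
          have := hGid μ l hl
          rw [hμn, sub_self, zero_mul, mul_eq_zero] at this
          rw [this.resolve_right (hne μ hμ l hl)]
          ring
      choose! a b hab using hAll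
      set p0 : ℂ := 2 * (Fintype.card Ω : ℂ) * (1 + (s : ℂ) * t) - ∑ μ ∈ L, c μ * a μ with hp0
      set p1 : ℂ := -4 * (Fintype.card Ω : ℂ) - ∑ μ ∈ L, c μ * b μ with hp1
      have hP : ∀ l, adm l → 2 * (n : ℂ) * c l * (1 + (s : ℂ) * t - 2 * x l) = p0 + p1 * x l := by
        intro l hl
        have hsum : (∑ μ ∈ L, c μ * (G μ l + G μ ((s : ℂ) * t / l))) * (1 + (s : ℂ) * t - 2 * x l) =
            ∑ μ ∈ L, c μ * a μ + (∑ μ ∈ L, c μ * b μ) * x l := by
          rw [Finset.sum_mul, Finset.sum_mul, ← Finset.sum_add_distrib]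
          exact Finset.sum_congr rfl fun μ hμ => by rw [mul_assoc, hab μ hμ l hl]; ring
        rw [hp0, hp1]
        linear_combination (1 + (s : ℂ) * t - 2 * x l) * key2 l hl - hsum
      have hPr := hP r hradm
      rw [hcr, hxr] at hPr
      have hP' : ∀ l, adm l → 2 * (n : ℂ) * c l * (1 + (s : ℂ) * t - 2 * x l) = p1 * (x l - r) :=
        fun l hl => by rw [hP l hl]; linear_combination -hPr
      have hp1ne : p1 ≠ 0 := fun h => by
        obtain ⟨l₀, hl₀, hc₀⟩ := hnonzero
        have := hP' l₀ hl₀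
        rw [h, zero_mul, mul_eq_zero, mul_eq_zero] at this
        rcases this with (h' | h') | h'
        · exact mul_ne_zero two_ne_zero (Nat.cast_ne_zero.mpr (by omega)) h'
        · exact hc₀ h'
        · exact hA l₀ hl₀ h'
      have e1 := hP' l hadm
      have e2 := hP' _ hadm'
      rw [hcσ] at e2
      have e3 : p1 * ((x (σ l) - x l) * (1 + (s : ℂ) * t - 2 * r)) = 0 := by
        linear_combination (1 + (s : ℂ) * t - 2 * x (σ l)) * e1 - (1 + (s : ℂ) * t - 2 * x l) * e2
      rcases mul_eq_zero.mp e3 with h | h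
      · exact hp1ne h
      rcases mul_eq_zero.mp h with h | h
      · exact hne' (sub_eq_zero.mp h)
      rw [hrst hst, ← hst] at h
      have : ((s : ℂ) - 1) * ((s : ℂ) - 1) = 0 := by linear_combination h
      rw [mul_self_eq_zero, sub_eq_zero] at this
      exact absurd (Nat.cast_eq_one.mp this) (by omega)
    · -- unequal parameters
      have hev' : Even n := by
        rcases Nat.even_or_odd' n with ⟨m, hm | hm⟩
        · exact ⟨m, by omega⟩
        · exact absurd (hodd m hm).1 hst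
      have hsL : -(s : ℂ) ∈ L := hmemL _ (Or.inr (Or.inr ⟨hev', Or.inl rfl⟩))
      have hB : ∀ l, adm l → (s : ℂ) + t + 2 * x l ≠ 0 := fun l hl h =>
        hne _ hsL l hl (by linear_combination (s : ℂ) * h)
      have hAll : ∀ μ ∈ L, ∃ a b d : ℂ, ∀ l, adm l →
          (G μ l + G μ ((s : ℂ) * t / l)) * (1 + (s : ℂ) * t - 2 * x l) * ((s : ℂ) + t + 2 * x l) =
            a + b * x l + d * x l ^ 2 := by
        intro μ hμ
        have hA' : (μ = (s : ℂ) * t ∨ μ = 1) → ∃ a b d : ℂ, ∀ l, adm l →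
            (G μ l + G μ ((s : ℂ) * t / l)) * (1 + (s : ℂ) * t - 2 * x l) * ((s : ℂ) + t + 2 * x l) =
              a + b * x l + d * x l ^ 2 := fun h => by
          obtain ⟨a, b, hab⟩ := hαA μ h
          refine ⟨a * ((s : ℂ) + t), 2 * a + b * ((s : ℂ) + t), 2 * b, fun l hl => ?_⟩
          rw [hab l hl]; ring
        rcases hLmem μ hμ with h | h | ⟨-, h | h⟩
        · exact hA' (Or.inl h)
        · exact hA' (Or.inr h)
        · refine ⟨2 * (1 - μ ^ n / r ^ n) * t * (1 + (s : ℂ) * t),
            2 * (1 - μ ^ n / r ^ n) * (1 + (s : ℂ) * t - 2 * t), -4 * (1 - μ ^ n / r ^ n),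
            fun l hl => mul_left_cancel₀ (show (s : ℂ) ≠ 0 by exact_mod_cast (by omega : s ≠ 0)) ?_⟩
          have h' := hGid μ l hl
          subst h
          linear_combination (1 + (s : ℂ) * t - 2 * x l) * h'
        · refine ⟨2 * (1 - μ ^ n / r ^ n) * s * (1 + (s : ℂ) * t),
            2 * (1 - μ ^ n / r ^ n) * (1 + (s : ℂ) * t - 2 * s), -4 * (1 - μ ^ n / r ^ n),
            fun l hl => mul_left_cancel₀ (show (t : ℂ) ≠ 0 by exact_mod_cast (by omega : t ≠ 0)) ?_⟩
          have h' := hGid μ l hl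
          subst h
          linear_combination (1 + (s : ℂ) * t - 2 * x l) * h'
      choose! a b d habd using hAll
      obtain ⟨q0, q1, q2, hQ⟩ : ∃ q0 q1 q2 : ℂ, ∀ l, adm l → 2 * (n : ℂ) * c l *
          ((1 + (s : ℂ) * t - 2 * x l) * ((s : ℂ) + t + 2 * x l)) = q0 + q1 * x l + q2 * x l ^ 2 := by
        refine ⟨2 * (Fintype.card Ω : ℂ) * (1 + (s : ℂ) * t) * ((s : ℂ) + t) - ∑ μ ∈ L, c μ * a μ,
          2 * (Fintype.card Ω : ℂ) * (2 * (1 + (s : ℂ) * t) - 2 * ((s : ℂ) + t)) - ∑ μ ∈ L, c μ * b μ,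
          -8 * (Fintype.card Ω : ℂ) - ∑ μ ∈ L, c μ * d μ, fun l hl => ?_⟩
        have hsum : (∑ μ ∈ L, c μ * (G μ l + G μ ((s : ℂ) * t / l))) *
            ((1 + (s : ℂ) * t - 2 * x l) * ((s : ℂ) + t + 2 * x l)) =
            ∑ μ ∈ L, c μ * a μ + (∑ μ ∈ L, c μ * b μ) * x l + (∑ μ ∈ L, c μ * d μ) * x l ^ 2 := by
          rw [Finset.sum_mul, Finset.sum_mul, Finset.sum_mul, ← Finset.sum_add_distrib,
            ← Finset.sum_add_distrib]
          exact Finset.sum_congr rfl fun μ hμ => by
            rw [mul_assoc, ← mul_assoc (G μ l + G μ ((s : ℂ) * t / l)), habd μ hμ l hl]; ring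
        linear_combination ((1 + (s : ℂ) * t - 2 * x l) * ((s : ℂ) + t + 2 * x l)) * key2 l hl - hsum
      have hnegL : ∀ l, adm l → x (-l) = -x l := fun l _ => by simp only [x, div_neg]; ring
      have hnegr : adm (-r) := ⟨hev'.neg_pow r, by
        rw [hrdef, ← Complex.ofReal_neg]; exact hnotL (-rr) (by rw [neg_sq, hrr2]) (Or.inr hst)⟩
      have hcnr : c (-r) = 0 := hc0 _ hnegr (by rw [neg_mul_neg, ← sq, hr])
      have e1 := hQ r hradm
      have e2 := hQ _ hnegr
      rw [hcr, hxr] at e1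
      rw [hcnr, hnegL r hradm, hxr] at e2
      have hQ' : ∀ l, adm l → 2 * (n : ℂ) * c l *
          ((1 + (s : ℂ) * t - 2 * x l) * ((s : ℂ) + t + 2 * x l)) = q2 * (x l ^ 2 - r ^ 2) := by
        have hq1 : q1 = 0 := by
          have : q1 * (2 * r) = 0 := by linear_combination e2 - e1
          exact (mul_eq_zero.mp this).resolve_right (mul_ne_zero two_ne_zero hr0)
        intro l hl
        rw [hQ l hl, hq1]
        rw [hq1] at e1
        linear_combination -e1
      have hq2ne : q2 ≠ 0 := fun h => by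
        obtain ⟨l₀, hl₀, hc₀⟩ := hnonzero
        have := hQ' l₀ hl₀
        rw [h, zero_mul, mul_eq_zero, mul_eq_zero, mul_eq_zero (a := 1 + (s : ℂ) * t - 2 * x l₀)] at this
        rcases this with (h' | h') | h' | h'
        · exact mul_ne_zero two_ne_zero (Nat.cast_ne_zero.mpr (by omega)) h'
        · exact hc₀ h'
        · exact hA l₀ hl₀ h'
        · exact hB l₀ hl₀ h'
      have hadmneg : ∀ l, adm l → l.im ≠ 0 → adm (-l) := fun l hl hi =>
        ⟨by rw [hev'.neg_pow, hl.1], fun h => by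
          obtain ⟨z, -, hz⟩ := hLint _ h
          exact hi (by simpa using congrArg Complex.im hz)⟩
      have hadmn := hadmneg l hadm him0
      have hadmn' : adm (-σ l) := by rw [← map_neg]; exact hσL σ _ hadmn
      have f1 := hQ' l hadm
      have f2 := hQ' _ hadm'
      have f3 := hQ' _ hadmn
      have f4 := hQ' _ hadmn'
      rw [hcσ] at f2
      rw [← map_neg, hcσ, map_neg] at f4
      rw [hnegL l hadm] at f3
      rw [hnegL _ hadm'] at f4
      have e3 : q2 * ((x (σ l) - x l) * (4 * (1 + (s : ℂ) * t - s - t) * ((s : ℂ) * t + x l * x (σ l)))) = 0 := by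
        rw [hr] at f1 f2 f3 f4
        linear_combination -(((1 + (s : ℂ) * t - 2 * x l) * ((s : ℂ) + t + 2 * x l)) * f2)
          + ((1 + (s : ℂ) * t - 2 * x (σ l)) * ((s : ℂ) + t + 2 * x (σ l))) * f1
          + ((1 + (s : ℂ) * t - 2 * -x l) * ((s : ℂ) + t + 2 * -x l)) * f4
          - ((1 + (s : ℂ) * t - 2 * -x (σ l)) * ((s : ℂ) + t + 2 * -x (σ l))) * f3
      rcases mul_eq_zero.mp e3 with h | h
      · exact hq2ne h
      rcases mul_eq_zero.mp h with h | h
      · exact hne' (sub_eq_zero.mp h)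
      rcases mul_eq_zero.mp h with h | h
      · have : ((s : ℂ) - 1) * ((t : ℂ) - 1) = 0 := by linear_combination h / 4
        rcases mul_eq_zero.mp this with h' | h' <;> rw [sub_eq_zero, Nat.cast_eq_one] at h' <;> omega
      · -- the two values are too small
        have hx' : x (σ l) = ((σ l).re : ℂ) := by
          simp only [x]; rw [← hconj _ hadm', Complex.add_conj]; push_cast; ring
        have hnorm : ∀ l, adm l → l.re ^ 2 + l.im ^ 2 = ((s * t : ℕ) : ℝ) := by
          intro l hl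
          have h1 := hconj l hl
          rw [eq_div_iff (hl0 l hl), mul_comm, Complex.mul_conj] at h1
          have h2 : Complex.normSq l = ((s * t : ℕ) : ℝ) := by
            apply Complex.ofReal_injective; rw [h1]; push_cast; rfl
          rw [← h2, Complex.normSq_apply]; ring
        rw [hxl, hx', ← hre] at h
        have h' : ((s * t : ℕ) : ℝ) + l.re * (σ l).re = 0 := by
          apply Complex.ofReal_injective; push_cast; exact h
        have := hnorm l hadm
        have := hnorm _ hadm'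
        have : 0 < l.im ^ 2 := pow_two_pos_of_ne_zero him0
        nlinarith [sq_nonneg (l.re + (σ l).re), sq_nonneg (σ l).im]
  have hlint : IsIntegral ℚ l := IsIntegral.of_pow (by omega : 0 < n) (by
    rw [hadm.1, hRn]; exact map_natCast (algebraMap ℚ ℂ) Rn ▸ isIntegral_algebraMap)
  have halg : IsAlgebraic ℚ (x l) := by
    have hst : IsAlgebraic ℚ ((s : ℂ) * t) := by
      rw [← Nat.cast_mul, ← map_natCast (algebraMap ℚ ℂ)]; exact isAlgebraic_algebraMap _
    have h2 : IsAlgebraic ℚ (2 : ℂ) := by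
      rw [← map_ofNat (algebraMap ℚ ℂ) 2]; exact isAlgebraic_algebraMap _
    simp only [x, div_eq_mul_inv]
    exact (hlint.isAlgebraic.add (hst.mul hlint.isAlgebraic.inv)).mul h2.inv
  obtain ⟨q, hq⟩ := CharGalois.exists_rat_of_fixed halg hfixed
  refine ⟨q, ?_⟩
  rw [hxl] at hq
  exact_mod_cast hq

end

theorem mem_of_rat_cos {n : ℕ} (hn : 3 ≤ n) (h : ∃ q : ℚ, Real.cos (2 * π / n) = q) :
    n = 3 ∨ n = 4 ∨ n = 6 := by
  have hnR : (0 : ℝ) < n := Nat.cast_pos.mpr (by omega)
  have hv := niven (θ := 2 * π / n) ⟨2 / n, by push_cast; field_simp⟩ h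
  have hπ := Real.pi_pos
  have hθ : 2 * π / (n : ℝ) ∈ Set.Icc 0 π := ⟨by positivity, by
    rw [div_le_iff₀ hnR]
    have : (3 : ℝ) ≤ n := by exact_mod_cast hn
    nlinarith⟩
  have key : ∀ (φ : ℝ) (k : ℕ), φ ∈ Set.Icc 0 π → Real.cos (2 * π / n) = Real.cos φ → 0 < φ →
      φ * k = 2 * π → n = k := by
    intro φ k hφ he h0 hk
    have e := Real.injOn_cos hθ hφ he
    rw [div_eq_iff hnR.ne', ← hk] at e
    exact_mod_cast (mul_left_cancel₀ h0.ne' e).symm
  simp only [Set.mem_insert_iff, Set.mem_singleton_iff] at hv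
  rcases hv with h | h | h | h | h
  · have := key π 2 ⟨hπ.le, le_rfl⟩ (by rw [h, Real.cos_pi]) hπ (by push_cast; ring)
    omega
  · exact Or.inl (key (2 * π / 3) 3 ⟨by positivity, by linarith⟩ (by
      rw [h, show 2 * π / 3 = π - π / 3 by ring, Real.cos_pi_sub, Real.cos_pi_div_three]; ring)
      (by positivity) (by push_cast; ring))
  · exact Or.inr (Or.inl (key (π / 2) 4 ⟨by positivity, by linarith⟩
      (by rw [h, Real.cos_pi_div_two]) (by positivity) (by push_cast; ring)))
  · exact Or.inr (Or.inr (key (π / 3) 6 ⟨by positivity, by linarith⟩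
      (by rw [h, Real.cos_pi_div_three]) (by positivity) (by push_cast; ring)))
  · exfalso
    have e := Real.injOn_cos hθ ⟨le_rfl, hπ.le⟩ (by rw [h, Real.cos_zero])
    exact (ne_of_gt (by positivity : 0 < 2 * π / (n : ℝ))) e

/-- The Feit–Higman values. -/
theorem feit_higman_values {s t n : ℕ} (hs : 2 ≤ s) (ht : 2 ≤ t) (hn : 3 ≤ n)
    (h : ∀ j : ℕ, 0 < j → 2 * j < n → ∃ q : ℚ, √((s * t : ℕ) : ℝ) * Real.cos (2 * π * j / n) = q)
    (hodd : ∀ m, n = 2 * m + 1 → s = t) : n = 3 ∨ n = 4 ∨ n = 6 ∨ n = 8 := by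
  have hst : (0 : ℝ) < ((s * t : ℕ) : ℝ) := Nat.cast_pos.mpr (by positivity)
  obtain ⟨q, hq⟩ := h 1 one_pos (by omega)
  rw [Nat.cast_one, mul_one] at hq
  rcases Nat.even_or_odd' n with ⟨m, hm | hm⟩
  · rcases (by omega : m = 2 ∨ 3 ≤ m) with h2 | h3
    · omega
    have hrat : ∃ q : ℚ, Real.cos (2 * π / m) = q := by
      refine ⟨2 * q ^ 2 / (s * t : ℕ) - 1, ?_⟩
      have e : 2 * π / (m : ℝ) = 2 * (2 * π / n) := by
        rw [hm]; push_cast; field_simp
      rw [e, Real.cos_two_mul]
      have h1 : √((s * t : ℕ) : ℝ) ^ 2 * Real.cos (2 * π / n) ^ 2 = (q : ℝ) ^ 2 := by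
        rw [← mul_pow, hq]
      rw [Real.sq_sqrt hst.le] at h1
      rw [Rat.cast_sub, Rat.cast_div, Rat.cast_mul, Rat.cast_pow, Rat.cast_natCast, Rat.cast_ofNat,
        Rat.cast_one, ← h1]
      field_simp
    rcases mem_of_rat_cos h3 hrat with h | h | h
    · omega
    · omega
    · exfalso
      have hn12 : n = 12 := by omega
      subst hn12
      obtain ⟨q2, hq2⟩ := h 2 two_pos (by omega)
      rw [show 2 * π * ((2 : ℕ) : ℝ) / ((12 : ℕ) : ℝ) = π / 3 by push_cast; ring,
        Real.cos_pi_div_three] at hq2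
      rw [show 2 * π / ((12 : ℕ) : ℝ) = π / 6 by push_cast; ring, Real.cos_pi_div_six] at hq
      have hq20 : (q2 : ℝ) ≠ 0 := by
        rw [← hq2]; exact mul_ne_zero (Real.sqrt_pos.mpr hst).ne' (by norm_num)
      refine (Nat.prime_three.irrational_sqrt) ⟨q / q2, ?_⟩
      rw [Rat.cast_div, ← hq, ← hq2]
      rw [Nat.cast_ofNat]
      have := (Real.sqrt_pos.mpr hst).ne'
      field_simp
  · have := hodd m hm
    subst this
    rcases mem_of_rat_cos hn ⟨q / s, by
      rw [Rat.cast_div, Rat.cast_natCast, ← hq, Nat.cast_mul, Real.sqrt_mul_self (Nat.cast_nonneg _)]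
      have : (s : ℝ) ≠ 0 := by exact_mod_cast (by omega : s ≠ 0)
      field_simp⟩ with h | h | h <;> omega

end Cfsg.Agent.Lib.BN
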