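import Cfsg.Agent.Lib.BN.Hecke
import Cfsg.Agent.Lib.BN.FeitHigmanAlgebra

/-!
# The theorem of Feit and Higman for rank two (B, N)-pairs
-/

set_option autoImplicit false
set_option linter.unusedSectionVars false
set_option linter.style.haveILetI false

namespace Cfsg.Agent.Lib.BN

open scoped Classical
open Matrix

theorem mulVec_pow_of_eigen {Ω : Type*} [Fintype Ω] [DecidableEq Ω] (M : Matrix Ω Ω ℂ) (v : Ω → ℂ) (l : ℂ)
    (h : M *ᵥ v = l • v) : ∀ k : ℕ, (M ^ k) *ᵥ v = l ^ k • v
  | 0 => by simp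
  | k + 1 => by
    rw [pow_succ, ← Matrix.mulVec_mulVec, h, Matrix.mulVec_smul, mulVec_pow_of_eigen M v l h k,
      smul_smul, pow_succ']

theorem orderOf_rot_mem {G : Type*} [Group G] [Finite G] (P : Cfsg.BNPair G) {a b : P.S} (hab : a ≠ b)
    (hS : ∀ x : P.S, x = a ∨ x = b) :
    orderOf (rot P a b) = 2 ∨ orderOf (rot P a b) = 3 ∨ orderOf (rot P a b) = 4 ∨
      orderOf (rot P a b) = 6 ∨ orderOf (rot P a b) = 8 := by
  have := Fintype.ofFinite (G ⧸ P.B)
  haveI : Nonempty (G ⧸ P.B) := ⟨((1 : G) : G ⧸ P.B)⟩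
  rcases (two_le_orderOf_rot P hab).eq_or_lt with h | hn
  · exact Or.inl h.symm
  replace hn : 3 ≤ orderOf (rot P a b) := hn
  set n := orderOf (rot P a b) with hndef
  set T := hecke P (si P a) with hTdef
  set U := hecke P (si P b) with hUdef
  have hW := heckeWord_eq P hab hS
  have hw0 : ∀ m, n = 2 * m + 1 → T * ((T * U) ^ m * T) = (T * U) ^ m * T * U := by
    intro m hm
    have h1 : (T * U) ^ m * T = (U * T) ^ m * U := by
      rw [hTdef, hUdef, ← heckeWord_alt_odd, ← heckeWord_alt_odd, (hW _ (by omega)).1,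
        (hW _ (by omega)).2, word_alt_odd, word_alt_odd, rot_swap P a b, ← rot_inv_mul P a b, ← mul_assoc,
        _root_.inv_zpow', ← _root_.zpow_neg_one, ← _root_.zpow_add]
      congr 2
      rw [← sub_eq_zero.mp (show (m : ℤ) - (m : ℤ) = 0 by ring)]
      refine zpow_eq_zpow_iff_modEq.mpr ?_
      rw [← hndef, Int.modEq_iff_dvd, hm]
      exact ⟨-1, by push_cast; ring⟩
    have key : ∀ k : ℕ, T * (U * T) ^ k = (T * U) ^ k * T := by
      intro k
      induction k with
      | zero => simp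
      | succ k ih => rw [pow_succ, ← mul_assoc, ih, pow_succ]; simp [mul_assoc]
    calc T * ((T * U) ^ m * T) = T * (U * T) ^ m * U := by rw [h1, mul_assoc]
      _ = _ := by rw [key]
  have hqq : ∀ m, n = 2 * m + 1 → thick P a = thick P b := by
    intro m hm
    have hT1 : T *ᵥ (fun _ => (1 : ℂ)) = (thick P a : ℂ) • fun _ => (1 : ℂ) := by
      rw [hTdef, hecke_mulVec_one]; funext; simp
    have hU1 : U *ᵥ (fun _ => (1 : ℂ)) = (thick P b : ℂ) • fun _ => (1 : ℂ) := by
      rw [hUdef, hecke_mulVec_one]; funext; simp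
    have hX1 : (T * U) *ᵥ (fun _ => (1 : ℂ)) =
        ((thick P a : ℂ) * thick P b) • fun _ => (1 : ℂ) := by
      rw [← Matrix.mulVec_mulVec, hU1, Matrix.mulVec_smul, hT1, smul_smul, mul_comm]
    have hp := mulVec_pow_of_eigen _ _ _ hX1 m
    have h := congrArg (fun M => M *ᵥ (fun _ => (1 : ℂ))) (hw0 m hm)
    simp only [← Matrix.mulVec_mulVec, hT1, hU1, Matrix.mulVec_smul, hp, smul_smul] at h
    have h' := congrFun h (Classical.arbitrary _)
    simp only [Pi.smul_apply, smul_eq_mul, mul_one] at h'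
    have ha : (thick P a : ℂ) ≠ 0 := Nat.cast_ne_zero.mpr (by have := two_le_thick P a; omega)
    have hb : (thick P b : ℂ) ≠ 0 := Nat.cast_ne_zero.mpr (by have := two_le_thick P b; omega)
    have : (thick P a : ℂ) = thick P b := by
      apply mul_left_cancel₀ (mul_ne_zero ha (pow_ne_zero m (mul_ne_zero ha hb)))
      linear_combination h'
    exact_mod_cast this
  obtain ⟨h1, h2⟩ := exists_rat_cos T U (thick P a) (thick P b) (two_le_thick P a) (two_le_thick P b)
    n hn (hecke_sq P a) (hecke_sq P b)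
    (fun m hm => by
      rw [hTdef, hUdef, ← heckeWord_alt_even, ← heckeWord_alt_even, (hW _ (by omega)).1,
        (hW _ (by omega)).2, word_alt_even, word_alt_even, rot_swap P a b, _root_.inv_zpow']
      congr 1
      refine zpow_eq_zpow_iff_modEq.mpr ?_
      rw [← hndef, Int.modEq_iff_dvd, hm]
      exact ⟨-1, by push_cast; ring⟩)
    (fun m hm => ⟨hqq m hm, hw0 m hm⟩)
    (fun k hk hkn => trace_pow_eq_zero P hab hS hk hkn)
    (fun σ => by
      rw [hTdef, hUdef]
      change ((hecke P (si P a) * hecke P (si P b)).map σ.toRingHom) = _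
      rw [Matrix.map_mul]
      exact congrArg₂ (· * ·) (map_hecke P σ _) (map_hecke P σ _))
  exact Or.inr (feit_higman_values (two_le_thick P a) (two_le_thick P b) hn h1 h2)

/-- The Weyl group of a rank two (B, N)-pair of a finite group has order 4, 6, 8, 12 or 16. -/
theorem feit_higman {G : Type*} [Group G] [Finite G] (P : Cfsg.BNPair G) (h2 : P.rank = 2) :
    ((P.B ⊓ P.N).subgroupOf P.N).index ∈ ({4, 6, 8, 12, 16} : Set ℕ) := by
  obtain ⟨a, b, hab, hu⟩ := Nat.card_eq_two_iff.mp h2
  have hS : ∀ x : P.S, x = a ∨ x = b := fun x => by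
    have : x ∈ ({a, b} : Set P.S) := hu ▸ Set.mem_univ x
    simpa using this
  have hc : ((P.B ⊓ P.N).subgroupOf P.N).index = 2 * orderOf (rot P a b) := by
    rw [← card_weyl P hab hS]
    exact Subgroup.index_eq_card _
  rw [hc]
  rcases orderOf_rot_mem P hab hS with h | h | h | h | h <;> simp [h]

end Cfsg.Agent.Lib.BN
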