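import Cfsg.Agent.Lib.BN.Dihedral
import Mathlib.LinearAlgebra.Matrix.Trace
import Mathlib.Algebra.BigOperators.Ring.Finset
import Mathlib.Data.Complex.Basic

/-!
# The Hecke operators of a (B, N)-pair on the flags
-/

set_option autoImplicit false
set_option linter.unusedSectionVars false
set_option linter.style.haveILetI false

namespace Cfsg.Agent.Lib.BN

open scoped Classical
open Matrix

variable {G : Type*} [Group G] (P : Cfsg.BNPair G)

/-- The relation of relative position `w` between two flags. -/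
def rel (w : Weyl P) (x y : G ⧸ P.B) : Prop := x.out⁻¹ * y.out ∈ cell P w

theorem rel_mk {w : Weyl P} {g h : G} : rel P w (g : G ⧸ P.B) (h : G ⧸ P.B) ↔ g⁻¹ * h ∈ cell P w := by
  obtain ⟨b, hb⟩ := QuotientGroup.mk_out_eq_mul P.B g
  obtain ⟨c, hc⟩ := QuotientGroup.mk_out_eq_mul P.B h
  rw [rel, hb, hc]
  constructor <;> intro H
  · have := mul_mem_cell_right P (inv_mem c.2) (mul_mem_cell_left P b.2 H)
    simpa [mul_assoc] using this
  · have := mul_mem_cell_right P c.2 (mul_mem_cell_left P (inv_mem b.2) H)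
    simpa [mul_assoc] using this

theorem rel_one {x y : G ⧸ P.B} : rel P 1 x y ↔ x = y := by
  induction x using QuotientGroup.induction_on with
  | _ g =>
    induction y using QuotientGroup.induction_on with
    | _ h => rw [rel_mk, mem_cell_one, QuotientGroup.eq]

theorem rel_unique {v w : Weyl P} {x y : G ⧸ P.B} (h : rel P v x y) (h' : rel P w x y) : v = w :=
  eq_of_mem_cells P h h'

theorem rel_symm {w : Weyl P} {x y : G ⧸ P.B} (h : rel P w x y) : rel P w⁻¹ y x := by
  have := inv_mem_cell P h
  simpa [rel] using this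

theorem rel_si_symm {s : P.S} {x y : G ⧸ P.B} (h : rel P (si P s) x y) : rel P (si P s) y x := by
  simpa [si_inv] using rel_symm P h

theorem rel_smul {w : Weyl P} (g : G) {x y : G ⧸ P.B} :
    rel P w (g • x) (g • y) ↔ rel P w x y := by
  induction x using QuotientGroup.induction_on with
  | _ a =>
    induction y using QuotientGroup.induction_on with
    | _ b =>
      rw [MulAction.Quotient.smul_mk, MulAction.Quotient.smul_mk, rel_mk, rel_mk]
      simp [mul_assoc]

theorem rel_comp {s : P.S} {w : Weyl P} (hlen : len P w ≤ len P (si P s * w)) {x z y : G ⧸ P.B}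
    (h1 : rel P (si P s) x z) (h2 : rel P w z y) : rel P (si P s * w) x y := by
  obtain ⟨b₁, hb₁, b₂, hb₂, he⟩ := (mem_cell_cls P (n := ⟨s.1, P.subset s.2⟩)).1 h1
  have h3 := mul_mem_cell_left P hb₁ (step_up P hlen (mul_mem_cell_left P hb₂ h2))
  have e : x.out⁻¹ * y.out = b₁ * ((s : G) * (b₂ * (z.out⁻¹ * y.out))) := by
    calc x.out⁻¹ * y.out = (x.out⁻¹ * z.out) * (z.out⁻¹ * y.out) := by group
      _ = _ := by rw [he]; group
  rw [rel, e]
  exact h3

theorem rel_si_si {s : P.S} {x z y : G ⧸ P.B} (h1 : rel P (si P s) x z) (h2 : rel P (si P s) z y) :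
    x = y ∨ rel P (si P s) x y := by
  obtain ⟨b₁, hb₁, b₂, hb₂, he⟩ := (mem_cell_cls P (n := ⟨s.1, P.subset s.2⟩)).1 h1
  have e : x.out⁻¹ * y.out = b₁ * ((s : G) * (b₂ * (z.out⁻¹ * y.out))) := by
    calc x.out⁻¹ * y.out = (x.out⁻¹ * z.out) * (z.out⁻¹ * y.out) := by group
      _ = _ := by rw [he]; group
  rcases step_left P s (mul_mem_cell_left P hb₂ h2) with h | h
  · left
    rw [si_mul_self] at h
    rw [← rel_one P, rel, e]
    exact mul_mem_cell_left P hb₁ h
  · right
    rw [rel, e]
    exact mul_mem_cell_left P hb₁ h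

theorem rel_exists {s : P.S} {w : Weyl P} {x y : G ⧸ P.B} (h : rel P (si P s * w) x y) :
    ∃ z, rel P (si P s) x z ∧ rel P w z y := by
  obtain ⟨n, rfl⟩ := exists_cls P w
  induction x using QuotientGroup.induction_on with
  | _ a =>
    induction y using QuotientGroup.induction_on with
    | _ b =>
      rw [rel_mk] at h
      obtain ⟨b₁, hb₁, b₂, hb₂, he⟩ := (mem_cell_cls P (n := ⟨s.1, P.subset s.2⟩ * n)).1 h
      refine ⟨((a * (b₁ * (s : G)) : G) : G ⧸ P.B), ?_, ?_⟩
      · rw [rel_mk]
        have := mul_mem_cell_left P hb₁ (si_mem_cell P s)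
        simpa using this
      · rw [rel_mk]
        have h3 := mul_mem_cell_right P hb₂ (self_mem_cell P n)
        have e : (a * (b₁ * (s : G)))⁻¹ * b = (n : G) * b₂ := by
          calc (a * (b₁ * (s : G)))⁻¹ * b = (b₁ * (s : G))⁻¹ * (a⁻¹ * b) := by group
            _ = _ := by rw [he, Subgroup.coe_mul]; group
        rw [e]
        exact h3

variable [Finite G]

/-- The Hecke operator of a Weyl group element. -/
noncomputable def hecke (w : Weyl P) : Matrix (G ⧸ P.B) (G ⧸ P.B) ℂ :=
  Matrix.of fun x y => if rel P w x y then 1 else 0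

/-- The thickness of a generator. -/
noncomputable def thick (s : P.S) : ℕ :=
  Nat.card {z : G ⧸ P.B // rel P (si P s) ((1 : G) : G ⧸ P.B) z}

theorem card_rel (s : P.S) (x : G ⧸ P.B) :
    Nat.card {z : G ⧸ P.B // rel P (si P s) x z} = thick P s := by
  induction x using QuotientGroup.induction_on with
  | _ g =>
    refine (Nat.card_congr (Equiv.subtypeEquiv (MulAction.toPerm g) fun z => ?_)).symm
    rw [MulAction.toPerm_apply, ← rel_smul P g, MulAction.Quotient.smul_mk, smul_eq_mul, mul_one]

theorem two_le_thick (s : P.S) : 2 ≤ thick P s := by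
  obtain ⟨b, hb, hbs⟩ := exists_conj_not_mem P s
  have h1 : rel P (si P s) ((1 : G) : G ⧸ P.B) ((s : G) : G ⧸ P.B) := by
    rw [rel_mk, inv_one, one_mul]; exact si_mem_cell P s
  have h2 : rel P (si P s) ((1 : G) : G ⧸ P.B) ((b * s : G) : G ⧸ P.B) := by
    rw [rel_mk, inv_one, one_mul]; exact mul_mem_cell_left P hb (si_mem_cell P s)
  have hne : ((s : G) : G ⧸ P.B) ≠ ((b * s : G) : G ⧸ P.B) := by
    rw [Ne, QuotientGroup.eq]
    intro h
    refine hbs ?_
    rw [show (s : G) * b * s = (s : G) * s * ((s : G)⁻¹ * (b * s)) by group]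
    exact mul_mem (P.sq_mem s.1 s.2) h
  haveI : Nontrivial {z : G ⧸ P.B // rel P (si P s) ((1 : G) : G ⧸ P.B) z} :=
    ⟨⟨⟨_, h1⟩, ⟨_, h2⟩, fun e => hne (congrArg Subtype.val e)⟩⟩
  exact Finite.one_lt_card

variable [Fintype (G ⧸ P.B)]

theorem hecke_one : hecke P 1 = 1 := by
  ext x y
  simp [hecke, Matrix.one_apply, rel_one]

theorem hecke_mul_apply (v w : Weyl P) (x y : G ⧸ P.B) :
    (hecke P v * hecke P w) x y =
      ((Finset.univ.filter fun z => rel P v x z ∧ rel P w z y).card : ℂ) := by
  rw [Matrix.mul_apply, Finset.natCast_card_filter]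
  refine Finset.sum_congr rfl fun z _ => ?_
  by_cases h1 : rel P v x z <;> by_cases h2 : rel P w z y <;> simp [hecke, h1, h2]

theorem hecke_si_mul {s : P.S} {w : Weyl P} (hlen : len P w ≤ len P (si P s * w)) :
    hecke P (si P s) * hecke P w = hecke P (si P s * w) := by
  ext x y
  rw [hecke_mul_apply]
  by_cases h : rel P (si P s * w) x y
  · obtain ⟨z, hz1, hz2⟩ := rel_exists P h
    have hset : (Finset.univ.filter fun z => rel P (si P s) x z ∧ rel P w z y) = {z} := by
      ext z'
      simp only [Finset.mem_filter, Finset.mem_univ, true_and, Finset.mem_singleton]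
      refine ⟨fun ⟨a1, a2⟩ => ?_, fun e => e ▸ ⟨hz1, hz2⟩⟩
      rcases rel_si_si P (rel_si_symm P a1) hz1 with e | e
      · exact e
      · exfalso
        exact si_ne_one P s (mul_eq_right.1 (rel_unique P (rel_comp P hlen e hz2) a2))
    rw [hset, Finset.card_singleton, Nat.cast_one]
    simp [hecke, h]
  · rw [Finset.card_eq_zero.mpr (Finset.filter_eq_empty_iff.mpr fun z _ hz =>
      h (rel_comp P hlen hz.1 hz.2)), Nat.cast_zero]
    simp [hecke, h]

theorem hecke_sq (s : P.S) :
    hecke P (si P s) * hecke P (si P s) =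
      ((thick P s : ℂ) - 1) • hecke P (si P s) + (thick P s : ℂ) • 1 := by
  ext x y
  rw [hecke_mul_apply]
  have hirr : ∀ x, ¬ rel P (si P s) x x := fun x h =>
    si_ne_one P s (rel_unique P h ((rel_one P).2 rfl))
  have hcard : (Finset.univ.filter fun z => rel P (si P s) x z).card = thick P s := by
    rw [← card_rel P s x, Nat.card_eq_fintype_card, Fintype.card_subtype]
  by_cases hxy : x = y
  · subst hxy
    rw [show (Finset.univ.filter fun z => rel P (si P s) x z ∧ rel P (si P s) z x) =
      Finset.univ.filter fun z => rel P (si P s) x z from Finset.filter_congr fun z _ =>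
        ⟨And.left, fun h => ⟨h, rel_si_symm P h⟩⟩, hcard]
    simp [hecke, hirr x]
  by_cases h : rel P (si P s) x y
  · rw [show (Finset.univ.filter fun z => rel P (si P s) x z ∧ rel P (si P s) z y) =
      (Finset.univ.filter fun z => rel P (si P s) x z).erase y from by
        ext z
        simp only [Finset.mem_filter, Finset.mem_univ, true_and, Finset.mem_erase]
        refine ⟨fun hz => ⟨fun e => hirr y (e ▸ hz.2), hz.1⟩, fun hz => ⟨hz.2, ?_⟩⟩
        exact (rel_si_si P (rel_si_symm P hz.2) h).resolve_left hz.1,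
      Finset.card_erase_of_mem (by simp [h]), hcard,
      Nat.cast_sub (le_trans one_le_two (two_le_thick P s))]
    simp [hecke, h, hxy]
  · rw [Finset.card_eq_zero.mpr (Finset.filter_eq_empty_iff.mpr fun z _ hz =>
      (rel_si_si P hz.1 hz.2).elim hxy h), Nat.cast_zero]
    simp [hecke, h, hxy]

theorem trace_hecke_mul {v w : Weyl P} (h : v * w ≠ 1) :
    (hecke P v * hecke P w).trace = 0 := by
  refine Finset.sum_eq_zero fun x _ => ?_
  rw [Matrix.diag_apply, hecke_mul_apply, Finset.card_eq_zero.mpr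
    (Finset.filter_eq_empty_iff.mpr fun z _ hz => h ?_), Nat.cast_zero]
  rw [rel_unique P (rel_symm P hz.1) hz.2 |>.symm, mul_inv_cancel]

theorem hecke_mulVec_one (s : P.S) :
    hecke P (si P s) *ᵥ (fun _ => (1 : ℂ)) = fun _ => (thick P s : ℂ) := by
  funext x
  simp only [Matrix.mulVec, dotProduct, hecke, Matrix.of_apply, mul_one]
  rw [← card_rel P s x, Nat.card_eq_fintype_card, Fintype.card_subtype, Finset.natCast_card_filter]

theorem map_hecke (σ : ℂ ≃+* ℂ) (w : Weyl P) : (hecke P w).map σ = hecke P w := by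
  ext x y
  by_cases h : rel P w x y <;> simp [hecke, h]

/-- The product of operators along a word. -/
noncomputable def heckeWord (L : List P.S) : Matrix (G ⧸ P.B) (G ⧸ P.B) ℂ :=
  (L.map fun s => hecke P (si P s)).prod

theorem heckeWord_append (L L' : List P.S) :
    heckeWord P (L ++ L') = heckeWord P L * heckeWord P L' := by simp [heckeWord]

theorem heckeWord_alt_even (a b : P.S) : ∀ i : ℕ,
    heckeWord P (alt a b (2 * i)) = (hecke P (si P a) * hecke P (si P b)) ^ i
  | 0 => by simp [alt, heckeWord]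
  | i + 1 => by
    rw [pow_succ', ← heckeWord_alt_even a b i, show 2 * (i + 1) = 2 * i + 1 + 1 by ring]
    show heckeWord P (a :: b :: alt a b (2 * i)) = _
    simp [heckeWord, mul_assoc]

theorem heckeWord_alt_odd (a b : P.S) (i : ℕ) :
    heckeWord P (alt a b (2 * i + 1)) =
      (hecke P (si P a) * hecke P (si P b)) ^ i * hecke P (si P a) := by
  rw [alt_add, if_pos (even_two_mul i), heckeWord_append, heckeWord_alt_even]
  simp [alt, heckeWord]

theorem heckeWord_eq {a b : P.S} (hab : a ≠ b) (hS : ∀ x : P.S, x = a ∨ x = b) :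
    ∀ j : ℕ, j ≤ orderOf (rot P a b) →
      heckeWord P (alt a b j) = hecke P (word P (alt a b j)) ∧
      heckeWord P (alt b a j) = hecke P (word P (alt b a j))
  | 0, _ => by simp [alt, heckeWord, hecke_one]
  | j + 1, hj => by
    have hS' : ∀ x : P.S, x = b ∨ x = a := fun x => (hS x).symm
    have hj' : j + 1 ≤ orderOf (rot P b a) := by rwa [orderOf_rot_swap]
    obtain ⟨h1, h2⟩ := heckeWord_eq hab hS j (by omega)
    have step : ∀ (c d : P.S), c ≠ d → (∀ x : P.S, x = c ∨ x = d) →
        j + 1 ≤ orderOf (rot P c d) → j ≤ orderOf (rot P d c) →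
        heckeWord P (alt d c j) = hecke P (word P (alt d c j)) →
        heckeWord P (alt c d (j + 1)) = hecke P (word P (alt c d (j + 1))) := by
      intro c d hcd hS hj hj2 h
      show heckeWord P (c :: alt d c j) = hecke P (word P (c :: alt d c j))
      rw [word_cons, ← hecke_si_mul P (w := word P (alt d c j)), ← h]
      · simp [heckeWord]
      · rw [len_word_alt P hcd.symm (fun x => (hS x).symm) hj2]
        show j ≤ len P (word P (alt c d (j + 1)))
        rw [len_word_alt P hcd hS hj]
        omega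
    exact ⟨step a b hab hS hj (by rw [orderOf_rot_swap]; omega) h2,
      step b a hab.symm hS' hj' (by omega) h1⟩

theorem trace_pow_eq_zero {a b : P.S} (hab : a ≠ b) (hS : ∀ x : P.S, x = a ∨ x = b) {k : ℕ}
    (hk : 1 ≤ k) (hkn : k < orderOf (rot P a b)) :
    ((hecke P (si P a) * hecke P (si P b)) ^ k).trace = 0 := by
  have hword : word P (alt a b (2 * k)) ≠ 1 := by
    rw [word_alt_even, zpow_natCast]
    exact pow_ne_one_of_lt_orderOf (by omega) hkn
  rw [← heckeWord_alt_even, two_mul, alt_add, heckeWord_append]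
  rw [two_mul, alt_add, word_append] at hword
  split_ifs at hword ⊢
  · rw [(heckeWord_eq P hab hS k hkn.le).1]
    exact trace_hecke_mul P hword
  · rw [(heckeWord_eq P hab hS k hkn.le).1, (heckeWord_eq P hab hS k hkn.le).2]
    exact trace_hecke_mul P hword

end Cfsg.Agent.Lib.BN
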