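import Cfsg.Agent.Lib.BN.Deform
import Cfsg.Agent.Lib.BN.Hecke
import Cfsg.Agent.Lib.GLFlag.Irr

/-!
The irreducible constituents of the permutation character on the cosets of `B`, for a finite group
with a (B, N)-pair of constant thickness: their number is the class number of the Weyl group.
-/

set_option autoImplicit false
set_option linter.unusedSectionVars false

namespace Cfsg.Agent.Lib.BN

open Matrix MulAction
open scoped Classical ComplexConjugate ComplexOrder

universe u

variable {G : Type u} [Group G] [Fintype G] (P : Cfsg.BNPair G) [Fintype (Weyl P)]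
  [Fintype (G ⧸ P.B)]

/-- The Hecke operator of a vector. -/
noncomputable def heckeMap : (Weyl P → ℂ) →ₗ[ℂ] Matrix (G ⧸ P.B) (G ⧸ P.B) ℂ where
  toFun x := ∑ w, x w • hecke P w
  map_add' x y := by simp [add_smul, Finset.sum_add_distrib]
  map_smul' c x := by simp [smul_smul, Finset.smul_sum]

variable {P}

theorem heckeMap_dlt (w : Weyl P) : heckeMap P (Deform.dlt P w) = hecke P w := by
  simp [heckeMap, Deform.dlt, Pi.single_apply]

theorem heckeMap_apply (x : Weyl P → ℂ) (a b : G ⧸ P.B) {w : Weyl P} (h : rel P w a b) :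
    heckeMap P x a b = x w := by
  simp only [heckeMap, LinearMap.coe_mk, AddHom.coe_mk, Matrix.sum_apply, Matrix.smul_apply,
    smul_eq_mul]
  rw [Finset.sum_eq_single w]
  · simp [hecke, h]
  · intro v _ hv
    simp [hecke, show ¬ rel P v a b from fun h' => hv (rel_unique P h' h)]
  · simp

theorem exists_rel (a b : G ⧸ P.B) : ∃ w, rel P w a b := bruhat P _

theorem rel_base (n : P.N) :
    rel P (cls P n) ((1 : G) : G ⧸ P.B) ((n : G) : G ⧸ P.B) := by
  rw [rel_mk, inv_one, one_mul]; exact self_mem_cell P n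

theorem exists_move {n : P.N} {a b : G ⧸ P.B} (h : rel P (cls P n) a b) :
    ∃ g : G, g • ((1 : G) : G ⧸ P.B) = a ∧ g • ((n : G) : G ⧸ P.B) = b := by
  induction a using QuotientGroup.induction_on with
  | _ a =>
  induction b using QuotientGroup.induction_on with
  | _ b =>
  rw [rel_mk] at h
  obtain ⟨c, hc, c', hc', he⟩ := (mem_cell_cls P).1 h
  refine ⟨a * c, ?_, ?_⟩
  · rw [MulAction.Quotient.smul_coe, smul_eq_mul, mul_one, QuotientGroup.eq]
    simpa using inv_mem hc
  · rw [MulAction.Quotient.smul_coe, smul_eq_mul, QuotientGroup.eq]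
    have : (a * c * n)⁻¹ * b = c' := by
      calc (a * c * n)⁻¹ * b = (c * n)⁻¹ * (a⁻¹ * b) := by group
        _ = _ := by rw [he]; group
    rw [this]; exact hc'

theorem exists_trans {w : Weyl P} {x y x' y' : G ⧸ P.B} (h : rel P w x y) (h' : rel P w x' y') :
    ∃ g : G, g • x = x' ∧ g • y = y' := by
  obtain ⟨n, rfl⟩ := exists_cls P w
  obtain ⟨g, g1, g2⟩ := exists_move h
  obtain ⟨g', g1', g2'⟩ := exists_move h'
  refine ⟨g' * g⁻¹, ?_, ?_⟩
  · rw [mul_smul, ← g1, inv_smul_smul, g1']
  · rw [mul_smul, ← g2, inv_smul_smul, g2']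

theorem heckeMap_injective : Function.Injective (heckeMap P) := by
  intro x y h
  funext w
  obtain ⟨n, rfl⟩ := exists_cls P w
  have := congrFun (congrFun h ((1 : G) : G ⧸ P.B)) ((n : G) : G ⧸ P.B)
  rwa [heckeMap_apply x _ _ (rel_base n), heckeMap_apply y _ _ (rel_base n)] at this

theorem heckeMap_invariant (x : Weyl P → ℂ) (g : G) (a b : G ⧸ P.B) :
    heckeMap P x (g • a) (g • b) = heckeMap P x a b := by
  obtain ⟨w, hw⟩ := exists_rel a b
  rw [heckeMap_apply x _ _ hw, heckeMap_apply x _ _ ((rel_smul P g).2 hw)]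

theorem exists_heckeMap {X : Matrix (G ⧸ P.B) (G ⧸ P.B) ℂ}
    (hX : ∀ (g : G) a b, X (g • a) (g • b) = X a b) : ∃ x, heckeMap P x = X := by
  choose n hn using exists_cls P
  refine ⟨fun w => X ((1 : G) : G ⧸ P.B) ((n w : G) : G ⧸ P.B), Matrix.ext fun a b => ?_⟩
  obtain ⟨w, hw⟩ := exists_rel a b
  rw [heckeMap_apply _ _ _ hw]
  have h0 : rel P w ((1 : G) : G ⧸ P.B) ((n w : G) : G ⧸ P.B) := by
    conv => arg 2; rw [← hn w]
    exact rel_base _
  obtain ⟨g, g1, g2⟩ := exists_trans h0 hw
  rw [← g1, ← g2, hX]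

theorem hecke_transpose (w : Weyl P) : (hecke P w)ᵀ = hecke P w⁻¹ := by
  ext a b
  have h : rel P w b a ↔ rel P w⁻¹ a b :=
    ⟨fun h => rel_symm P h, fun h => by simpa using rel_symm P h⟩
  simp [hecke, h]

variable {q : ℕ} (hq : ∀ s, thick P s = q)
include hq

theorem hecke_lam (s : P.S) (x : Weyl P → ℂ) :
    heckeMap P (Deform.lam P (q : ℂ) s *ᵥ x) = hecke P (si P s) * heckeMap P x := by
  conv_lhs => rw [Deform.eq_sum_dlt x]
  conv_rhs => rw [Deform.eq_sum_dlt x]
  simp only [Matrix.mulVec_sum, Matrix.mulVec_smul, map_sum, map_smul, Finset.mul_sum,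
    Matrix.mul_smul, heckeMap_dlt]
  refine Finset.sum_congr rfl fun w _ => congrArg _ ?_
  rw [Deform.lam_dlt]
  split_ifs with h
  · rw [heckeMap_dlt, hecke_si_mul P h.le]
  · rw [map_add, map_smul, map_smul, heckeMap_dlt, heckeMap_dlt]
    have h1 : hecke P (si P s) * hecke P (si P s * w) = hecke P w := by
      rw [hecke_si_mul P (by rw [si_mul_cancel]; omega), si_mul_cancel]
    conv_rhs => rw [← h1, ← mul_assoc, hecke_sq, hq, Matrix.add_mul, Matrix.smul_mul,
      Matrix.smul_mul, one_mul, h1]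
    abel

theorem hecke_bas (w : Weyl P) (x : Weyl P → ℂ) :
    heckeMap P (Deform.bas P (q : ℂ) w *ᵥ x) = hecke P w * heckeMap P x := by
  obtain ⟨hl, hw⟩ := Deform.rword_spec (P := P) w
  have key : ∀ L : List P.S, L.length = len P (word P L) →
      heckeMap P (Deform.lamWord P (q : ℂ) L *ᵥ x) = hecke P (word P L) * heckeMap P x := by
    intro L
    induction L with
    | nil => intro _; simp [Deform.lamWord, hecke_one]
    | cons s L ih =>
      intro h
      have h0 := len_word_le P L
      have h1 := len_si_mul_le P s (word P L)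
      simp only [List.length_cons, word_cons] at h
      rw [show Deform.lamWord P (q : ℂ) (s :: L) = Deform.lam P q s * Deform.lamWord P q L from rfl,
        ← Matrix.mulVec_mulVec, hecke_lam hq, ih (by omega), ← mul_assoc,
        hecke_si_mul P (by omega), word_cons]
  have := key _ (by rw [hw]; exact hl)
  rwa [hw] at this

theorem hecke_opr (x y : Weyl P → ℂ) :
    heckeMap P (Deform.opr P (q : ℂ) x *ᵥ y) = heckeMap P x * heckeMap P y := by
  simp only [Deform.opr, Matrix.sum_mulVec, Matrix.smul_mulVec, map_sum, map_smul, hecke_bas hq]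
  simp only [heckeMap, LinearMap.coe_mk, AddHom.coe_mk, Finset.sum_mul, Matrix.smul_mul]

theorem hecke_cas (x : Weyl P → ℂ) :
    heckeMap P (Deform.cas P (q : ℂ) *ᵥ x) =
      ∑ w, ((q : ℂ) ^ len P w)⁻¹ • (hecke P w * heckeMap P x * (hecke P w)ᵀ) := by
  rw [← Deform.opr_col (q : ℂ) (Deform.cas P (q : ℂ) *ᵥ x), Deform.opr_cas, Matrix.sum_mulVec,
    map_sum]
  refine Finset.sum_congr rfl fun w _ => ?_
  rw [Matrix.smul_mulVec, map_smul, ← Matrix.mulVec_mulVec, Deform.bas_col, ← Matrix.mulVec_mulVec,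
    hecke_bas hq, hecke_opr hq, heckeMap_dlt, hecke_transpose, mul_assoc]

theorem hecke_row : ∀ (k : ℕ) (w : Weyl P), len P w = k →
    hecke P w *ᵥ (fun _ => (1 : ℂ)) = fun _ => (q : ℂ) ^ k := by
  intro k
  induction k with
  | zero => intro w hw; rw [eq_one_of_len_eq_zero P hw, hecke_one, Matrix.one_mulVec]; simp
  | succ k ih =>
    intro w hw
    obtain ⟨s, u, rfl, hu⟩ := exists_left_factor P (w := w) (by omega)
    rw [← hecke_si_mul P (by omega), ← Matrix.mulVec_mulVec, ih u (by omega),
      show (fun _ : G ⧸ P.B => (q : ℂ) ^ k) = (q : ℂ) ^ k • fun _ => (1 : ℂ) by funext _; simp,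
      Matrix.mulVec_smul, hecke_mulVec_one, hq]
    funext _
    simp [pow_succ]

theorem card_move (w : Weyl P) {x y x' y' : G ⧸ P.B} (h : rel P w x y) (h' : rel P w x' y') :
    ((Finset.univ.filter fun g : G => g • x = x' ∧ g • y = y').card : ℂ) *
      ((Fintype.card (G ⧸ P.B) : ℂ) * (q : ℂ) ^ len P w) = Fintype.card G := by
  set S : Finset ((G ⧸ P.B) × (G ⧸ P.B)) := Finset.univ.filter fun p => rel P w p.1 p.2
  set N := (Finset.univ.filter fun g : G => g • x = x' ∧ g • y = y').card
  have hS : (S.card : ℂ) = (Fintype.card (G ⧸ P.B) : ℂ) * (q : ℂ) ^ len P w := by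
    rw [Finset.natCast_card_filter, Fintype.sum_prod_type]
    have := hecke_row hq _ w rfl
    simp only [funext_iff, Matrix.mulVec, dotProduct, hecke, Matrix.of_apply, mul_one] at this
    simp only [this, Finset.sum_const, Finset.card_univ, nsmul_eq_mul]
  have hfib : ∀ p ∈ S, (Finset.univ.filter fun g : G => (g • x, g • y) = p).card = N := by
    intro p hp
    obtain ⟨g₁, e1, e2⟩ := exists_trans h' (Finset.mem_filter.1 hp).2
    refine (Finset.card_equiv (Equiv.mulLeft g₁) fun g => ?_).symm
    simp only [Finset.mem_filter, Finset.mem_univ, true_and, Equiv.coe_mulLeft, Prod.ext_iff,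
      mul_smul, ← e1, ← e2]
    simp
  have hcard : Fintype.card G = S.card * N := by
    rw [← Finset.card_univ,
      Finset.card_eq_sum_card_fiberwise (f := fun g : G => (g • x, g • y)) (t := S)
        (fun g _ => by simp [S, rel_smul, h]),
      Finset.sum_congr rfl hfib, Finset.sum_const, smul_eq_mul]
  rw [← hS, hcard, Nat.cast_mul, mul_comm]

theorem sum_hecke_hecke (hq0 : 0 < q) (x y x' y' : G ⧸ P.B) :
    ∑ w, ((q : ℂ) ^ len P w)⁻¹ * (hecke P w x y * hecke P w x' y') =
      (Fintype.card (G ⧸ P.B) : ℂ) * (Fintype.card G : ℂ)⁻¹ *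
        ∑ g : G, if g • x = x' ∧ g • y = y' then 1 else 0 := by
  obtain ⟨w, hw⟩ := exists_rel x y
  rw [Finset.sum_eq_single w, ← Finset.natCast_card_filter]
  · by_cases h : rel P w x' y'
    · have h1 := card_move hq w hw h
      simp only [hecke, Matrix.of_apply, if_pos hw, if_pos h, mul_one]
      have hq' : (q : ℂ) ^ len P w ≠ 0 := pow_ne_zero _ (Nat.cast_ne_zero.2 hq0.ne')
      have hG : (Fintype.card G : ℂ) ≠ 0 := Nat.cast_ne_zero.2 Fintype.card_ne_zero
      field_simp
      linear_combination -h1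
    · rw [Finset.filter_eq_empty_iff.2 fun g _ (hg : g • x = x' ∧ g • y = y') =>
        h (hg.1 ▸ hg.2 ▸ (rel_smul P g).2 hw)]
      simp [hecke, h]
  · intro v _ hv
    simp [hecke, show ¬ rel P v x y from fun h' => hv (rel_unique P h' hw)]
  · simp

omit hq

variable (P)

/-- The operator of a function on `G`, acting by inverses. -/
noncomputable def permOp : (G → ℂ) →ₗ[ℂ] Matrix (G ⧸ P.B) (G ⧸ P.B) ℂ where
  toFun f := Matrix.of fun a b => ∑ g : G, if g • a = b then f g else 0
  map_add' f f' := by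
    ext a b
    simp only [Matrix.of_apply, Matrix.add_apply, ← Finset.sum_add_distrib, Pi.add_apply]
    exact Finset.sum_congr rfl fun g _ => by split_ifs <;> simp
  map_smul' c f := by
    ext a b
    simp only [Matrix.of_apply, Matrix.smul_apply, RingHom.id_apply, Finset.smul_sum, smul_ite,
      smul_zero, Pi.smul_apply]

/-- The trace of a matrix against the permutations. -/
noncomputable def permTr (X : Matrix (G ⧸ P.B) (G ⧸ P.B) ℂ) : G → ℂ :=
  fun g => ∑ y, X y (g • y)

variable {P}

theorem isClassFunction_permTr {X : Matrix (G ⧸ P.B) (G ⧸ P.B) ℂ}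
    (hX : ∀ (g : G) a b, X (g • a) (g • b) = X a b) : IsClassFunction G (permTr P X) := by
  intro g h
  show ∑ y, X y ((h * g * h⁻¹) • y) = ∑ y, X y (g • y)
  refine (Fintype.sum_equiv (MulAction.toPerm h) _ _ fun y => ?_).symm
  rw [MulAction.toPerm_apply, mul_smul, mul_smul, inv_smul_smul, hX]

include hq in
theorem hecke_cas_eq (hq0 : 0 < q) (x : Weyl P → ℂ) :
    heckeMap P (Deform.cas P (q : ℂ) *ᵥ x) =
      ((Fintype.card (G ⧸ P.B) : ℂ) * (Fintype.card G : ℂ)⁻¹) •
        permOp P (permTr P (heckeMap P x)) := by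
  rw [hecke_cas hq]
  ext a b
  simp only [Matrix.sum_apply, Matrix.smul_apply, Matrix.mul_apply, Matrix.transpose_apply,
    smul_eq_mul, permOp, LinearMap.coe_mk, AddHom.coe_mk, Matrix.of_apply, permTr,
    Finset.mul_sum, Finset.sum_mul]
  set X := heckeMap P x
  have h : ∀ y' y, ∑ w, ((q : ℂ) ^ len P w)⁻¹ * (hecke P w a y * X y y' * hecke P w b y') =
      (Fintype.card (G ⧸ P.B) : ℂ) * (Fintype.card G : ℂ)⁻¹ *
        ∑ g : G, if g • a = b ∧ g • y = y' then X y y' else 0 := fun y' y => by
    calc _ = (∑ w, ((q : ℂ) ^ len P w)⁻¹ * (hecke P w a y * hecke P w b y')) * X y y' := by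
          rw [Finset.sum_mul]; exact Finset.sum_congr rfl fun _ _ => by ring
      _ = _ := by
          rw [sum_hecke_hecke hq hq0, mul_assoc, Finset.sum_mul]
          simp only [ite_mul, one_mul, zero_mul]
  rw [Finset.sum_comm]
  simp only [fun y' : G ⧸ P.B => Finset.sum_comm (s := (Finset.univ : Finset (Weyl P)))
    (t := (Finset.univ : Finset (G ⧸ P.B))) (f := fun w y => ((q : ℂ) ^ len P w)⁻¹ *
      (hecke P w a y * X y y' * hecke P w b y')), h, Finset.mul_sum]
  rw [Finset.sum_comm]
  conv_rhs =>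
    enter [2, g]
    rw [show ((Fintype.card (G ⧸ P.B) : ℂ) * (Fintype.card G : ℂ)⁻¹ *
        if g • a = b then ∑ y, X y (g • y) else 0) =
      ∑ y, (Fintype.card (G ⧸ P.B) : ℂ) * (Fintype.card G : ℂ)⁻¹ *
        if g • a = b then X y (g • y) else 0 by split_ifs <;> simp [Finset.mul_sum]]
  rw [Finset.sum_comm (γ := G)]
  refine Finset.sum_congr rfl fun y _ => ?_
  rw [Finset.sum_comm]
  refine Finset.sum_congr rfl fun g _ => ?_
  rw [Finset.sum_eq_single (g • y)]
  · simp
  · intro y' _ hy'
    simp [Ne.symm hy']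
  · simp

theorem permOp_invariant {f : G → ℂ} (hf : IsClassFunction G f) (h : G) (a b : G ⧸ P.B) :
    permOp P f (h • a) (h • b) = permOp P f a b := by
  simp only [permOp, LinearMap.coe_mk, AddHom.coe_mk, Matrix.of_apply]
  refine (Fintype.sum_equiv (MulAut.conj h).toEquiv _ _ fun g => ?_).symm
  simp only [MulEquiv.toEquiv_eq_coe, MulEquiv.coe_toEquiv, MulAut.conj_apply, hf g h, mul_smul,
    inv_smul_smul, smul_left_cancel_iff]

theorem permTr_permOp (f : G → ℂ) (h : G) :
    permTr P (permOp P f) h = ∑ g : G, f g * fixedPointCharacter P.B (g⁻¹ * h) := by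
  simp only [permTr, permOp, LinearMap.coe_mk, AddHom.coe_mk, Matrix.of_apply, fixedPointCharacter]
  rw [Finset.sum_comm]
  refine Finset.sum_congr rfl fun g _ => ?_
  rw [Nat.card_eq_fintype_card, Fintype.card_subtype, Finset.natCast_card_filter, Finset.mul_sum]
  refine Finset.sum_congr rfl fun y _ => ?_
  simp only [mem_fixedBy, mul_smul, inv_smul_eq_iff, mul_ite, mul_one, mul_zero]
  exact if_congr eq_comm rfl rfl

omit [Fintype (Weyl P)] [Fintype (G ⧸ P.B)] in
theorem irr_convolution {χ ψ : G → ℂ} (hχ : IsIrrCharacter G χ) (hψ : IsIrrCharacter G ψ) (h : G) :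
    ∑ g : G, χ g * ψ (g⁻¹ * h) = if χ = ψ then (Fintype.card G : ℂ) / χ 1 * χ h else 0 := by
  obtain ⟨n, σ, hσ, rfl⟩ := hψ
  set f : G → ℂ := fun g => χ g⁻¹ with hf'
  have hf : IsClassFunction G f := fun a b => by
    show χ (b * a * b⁻¹)⁻¹ = χ a⁻¹
    rw [show (b * a * b⁻¹)⁻¹ = b * a⁻¹ * b⁻¹ by group]
    exact Char.isClassFunction_of_isIrr hχ a⁻¹ b
  obtain ⟨c, hc, hcn⟩ := Char.avgOp_irreducible σ hf
  have h1 : ∑ g : G, χ g * σ.character (g⁻¹ * h) = c * σ.character h := by
    have e : LinearMap.trace ℂ _ (Char.avgOp σ f * σ h) = c * σ.character h := by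
      rw [hc, smul_mul_assoc, one_mul, map_smul, smul_eq_mul, Representation.character]
    rw [← e]
    simp only [Char.avgOp, Finset.sum_mul, smul_mul_assoc, map_sum, map_smul, smul_eq_mul,
      ← map_mul]
    refine Fintype.sum_equiv (Equiv.inv G) _ _ fun g => ?_
    simp [hf', Representation.character]
  have hσirr : IsIrrCharacter G σ.character := ⟨n, σ, hσ, rfl⟩
  have h2 : ∑ g : G, f g * σ.character g = (Fintype.card G : ℂ) * classInner σ.character χ := by
    simp only [classInner, Nat.card_eq_fintype_card]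
    rw [← mul_assoc, mul_inv_cancel₀ (Nat.cast_ne_zero.2 Fintype.card_ne_zero), one_mul]
    refine Finset.sum_congr rfl fun g _ => ?_
    obtain ⟨m, ρ, hρ, rfl⟩ := hχ
    show ρ.character g⁻¹ * σ.character g = _
    rw [mul_comm, Char.character_inv]
  rw [h2, Char.classInner_irr hσirr hχ] at hcn
  have hn : σ.character 1 = (Module.finrank ℂ (Fin n → ℂ) : ℂ) := Representation.char_one σ
  have hn0 : σ.character 1 ≠ 0 := Char.irr_degree_ne_zero hσirr
  rw [← hn] at hcn
  rw [h1]
  by_cases e : χ = σ.character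
  · rw [if_pos e, e]
    rw [if_pos e.symm, mul_one] at hcn
    rw [← hcn]
    field_simp
  · rw [if_neg e]
    rw [if_neg (Ne.symm e), mul_zero] at hcn
    rw [(mul_eq_zero.1 hcn).resolve_right hn0, zero_mul]

theorem convolution_fix {χ : G → ℂ} (hχ : IsIrrCharacter G χ) (h : G) :
    ∑ g : G, χ g * fixedPointCharacter P.B (g⁻¹ * h) =
      (Fintype.card G : ℂ) * classInner (fixedPointCharacter P.B) χ / χ 1 * χ h := by
  have hπ := Char.eq_sum_classInner_smul
    (Char.isClassFunction_of_isCharacter (GLFlag.isCharacter_fixedPointCharacter (G := G) P.B))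
  conv_lhs =>
    enter [2, g]
    rw [hπ]
  simp only [Finset.sum_apply, Pi.smul_apply, smul_eq_mul, Finset.mul_sum]
  rw [Finset.sum_comm, Finset.sum_eq_single (⟨χ, hχ⟩ : IrrCharacter G)]
  · calc _ = classInner (fixedPointCharacter P.B) χ * ∑ g : G, χ g * χ (g⁻¹ * h) := by
          rw [Finset.mul_sum]; exact Finset.sum_congr rfl fun _ _ => by ring
      _ = _ := by rw [irr_convolution hχ hχ, if_pos rfl]; ring
  · intro ψ _ hψ
    calc _ = classInner (fixedPointCharacter P.B) ψ * ∑ g : G, χ g * (ψ : G → ℂ) (g⁻¹ * h) := by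
          rw [Finset.mul_sum]; exact Finset.sum_congr rfl fun _ _ => by ring
      _ = _ := by
        rw [irr_convolution hχ ψ.2, if_neg fun e => hψ (Subtype.ext e.symm), mul_zero]
  · simp

theorem permOp_eq_zero {χ : G → ℂ} (hχ : IsIrrCharacter G χ)
    (h0 : classInner (fixedPointCharacter P.B) χ = 0) : permOp P χ = 0 := by
  rw [← Matrix.trace_mul_conjTranspose_self_eq_zero_iff]
  have hc : ∀ h : G, ∑ y, permOp P χ y (h • y) = 0 := fun h => by
    show permTr P (permOp P χ) h = 0
    rw [permTr_permOp, convolution_fix hχ, h0]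
    simp
  calc _ = ∑ h : G, conj (χ h) * ∑ y, permOp P χ y (h • y) := by
        simp only [Matrix.trace, Matrix.diag, Matrix.mul_apply, Matrix.conjTranspose_apply,
          Finset.mul_sum]
        conv_rhs => rw [Finset.sum_comm]
        refine Finset.sum_congr rfl fun y _ => ?_
        have e : ∀ b, star (permOp P χ y b) = ∑ h : G, if h • y = b then conj (χ h) else 0 := by
          intro b
          simp only [permOp, LinearMap.coe_mk, AddHom.coe_mk, Matrix.of_apply, star_sum]
          exact Finset.sum_congr rfl fun h _ => by split_ifs <;> simp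
        simp only [e, Finset.mul_sum, mul_ite, mul_zero]
        rw [Finset.sum_comm]
        refine Finset.sum_congr rfl fun h _ => ?_
        simp [mul_comm]
    _ = 0 := by simp [hc]

include hq in
/-- The number of distinct constituents is the class number of the Weyl group. -/
theorem card_constituents (hq0 : 0 < q) :
    Nat.card {χ : IrrCharacter G // classInner (fixedPointCharacter P.B) (χ : G → ℂ) ≠ 0} =
      Nat.card (ConjClasses (Weyl P)) := by
  rw [← Deform.cdim_eq_classes hq0]
  let I := {χ : IrrCharacter G // classInner (fixedPointCharacter P.B) (χ : G → ℂ) ≠ 0}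
  let v : I → Matrix (G ⧸ P.B) (G ⧸ P.B) ℂ := fun i => permOp P (i.1 : G → ℂ)
  have hind : LinearIndependent ℂ v := by
    rw [Fintype.linearIndependent_iff]
    intro a ha
    have h1 : ∑ i : I, (a i * ((Fintype.card G : ℂ) *
        classInner (fixedPointCharacter P.B) (i.1 : G → ℂ) / (i.1 : G → ℂ) 1)) •
          (i.1 : G → ℂ) = 0 := by
      funext h
      have := congrArg (fun X => permTr P X h) ha
      simp only [permTr, Matrix.sum_apply, Matrix.smul_apply, Matrix.zero_apply,
        Finset.sum_const_zero] at this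
      rw [Finset.sum_comm] at this
      rw [Finset.sum_apply]
      refine Eq.trans ?_ this
      refine Finset.sum_congr rfl fun i _ => ?_
      rw [Pi.smul_apply, ← Finset.smul_sum, smul_eq_mul, smul_eq_mul, mul_assoc,
        ← convolution_fix i.1.2, ← permTr_permOp]
      rfl
    have hli : LinearIndependent ℂ (fun i : I => (i.1 : G → ℂ)) :=
      (Char.linearIndependent_irr (G := G)).comp Subtype.val Subtype.val_injective
    intro i
    have h3 := Fintype.linearIndependent_iff.1 hli _ h1 i
    exact (mul_eq_zero.1 h3).resolve_right (div_ne_zero (mul_ne_zero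
      (Nat.cast_ne_zero.2 Fintype.card_ne_zero) i.2) (Char.irr_degree_ne_zero i.1.2))
  set c := (Fintype.card (G ⧸ P.B) : ℂ) * (Fintype.card G : ℂ)⁻¹
  have hc : c ≠ 0 := mul_ne_zero (Nat.cast_ne_zero.2 Fintype.card_ne_zero)
    (inv_ne_zero (Nat.cast_ne_zero.2 Fintype.card_ne_zero))
  have hspan : Submodule.map (heckeMap P) (LinearMap.range (Matrix.toLin' (Deform.cas P (q : ℂ)))) =
      Submodule.span ℂ (Set.range v) := by
    refine le_antisymm ?_ ?_
    · rintro _ ⟨_, ⟨x, rfl⟩, rfl⟩
      rw [Matrix.toLin'_apply, hecke_cas_eq hq hq0]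
      refine Submodule.smul_mem _ _ ?_
      rw [Char.eq_sum_classInner_smul
        (isClassFunction_permTr fun g a b => heckeMap_invariant x g a b), map_sum]
      refine Submodule.sum_mem _ fun ψ _ => ?_
      rw [map_smul]
      refine Submodule.smul_mem _ _ ?_
      by_cases h : classInner (fixedPointCharacter P.B) (ψ : G → ℂ) = 0
      · rw [permOp_eq_zero ψ.2 h]; exact zero_mem _
      · exact Submodule.subset_span ⟨⟨ψ, h⟩, rfl⟩
    · rw [Submodule.span_le]
      rintro _ ⟨i, rfl⟩
      obtain ⟨x, hx⟩ := exists_heckeMap (P := P) fun g a b =>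
        permOp_invariant (Char.isClassFunction_of_isIrr i.1.2) g a b
      set d := c * ((Fintype.card G : ℂ) *
        classInner (fixedPointCharacter P.B) (i.1 : G → ℂ) / (i.1 : G → ℂ) 1)
      have hd : d ≠ 0 := mul_ne_zero hc (div_ne_zero (mul_ne_zero
        (Nat.cast_ne_zero.2 Fintype.card_ne_zero) i.2) (Char.irr_degree_ne_zero i.1.2))
      refine ⟨d⁻¹ • (Deform.cas P (q : ℂ) *ᵥ x),
        Submodule.smul_mem _ _ ⟨x, Matrix.toLin'_apply _ _⟩, ?_⟩
      rw [map_smul, hecke_cas_eq hq hq0, hx,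
        show permTr P (permOp P (i.1 : G → ℂ)) = ((Fintype.card G : ℂ) *
          classInner (fixedPointCharacter P.B) (i.1 : G → ℂ) / (i.1 : G → ℂ) 1) • (i.1 : G → ℂ) from
          funext fun h => by rw [permTr_permOp, convolution_fix i.1.2]; rfl,
        map_smul, smul_smul, smul_smul, mul_assoc, inv_mul_cancel₀ hd, one_smul]
  rw [Deform.cdim, LinearEquiv.finrank_eq (Submodule.equivMapOfInjective _ heckeMap_injective _),
    hspan, finrank_span_eq_card hind, Nat.card_eq_fintype_card]

end Cfsg.Agent.Lib.BN
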