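import Cfsg.Agent.Lib.BN.Steinberg

/-!
Where the alternating sum vanishes, every prime order element of the centralizer divides the order of a
proper parabolic subgroup.
-/

set_option autoImplicit false

namespace Cfsg.Agent.Lib.BN

open Cfsg MulAction

universe u

attribute [local instance] Fintype.ofFinite

variable {G : Type u} [Group G] [Fintype G] (P : Cfsg.BNPair G)

/-- An element of prime order commuting with a point where the alternating sum vanishes lies, up to
conjugation, in a proper parabolic subgroup; in particular its order divides the order of one. -/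
theorem exists_parabolic_of_commute {r : ℕ} [hr : Fact r.Prime] {x b : G} (hx : orderOf x = r)
    (hc : Commute x b) (h0 : stChar P b = 0) :
    ∃ J : Finset P.S, (J : Set P.S) ≠ Set.univ ∧ r ∣ Nat.card ↥(P.parabolic (Subtype.val '' (J : Set P.S))) := by
  classical
  by_contra hne
  push Not at hne
  -- the number of points fixed by `b` on a proper parabolic's cosets
  have hdvd : ∀ J : Finset P.S, J ≠ Finset.univ →
      r ∣ Nat.card (fixedBy (G ⧸ P.parabolic (Subtype.val '' (J : Set P.S))) b) := by
    intro J hJ
    set H := P.parabolic (Subtype.val '' (J : Set P.S))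
    set X := fixedBy (G ⧸ H) b
    let Z := Subgroup.zpowers x
    have hmem : ∀ (z : ↥Z) (q : G ⧸ H), q ∈ X → (z : G) • q ∈ X := by
      intro z q hq
      have hzb : Commute (z : G) b := by
        obtain ⟨k, hk⟩ := Subgroup.mem_zpowers_iff.1 z.2
        rw [← hk]; exact hc.zpow_left k
      show b • ((z : G) • q) = (z : G) • q
      rw [smul_smul, ← hzb.eq, ← smul_smul, mem_fixedBy.1 hq]
    letI : MulAction ↥Z ↥X :=
      { smul := fun z q => ⟨(z : G) • q.1, hmem z q.1 q.2⟩
        one_smul := fun q => Subtype.ext (one_smul G q.1)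
        mul_smul := fun z z' q => Subtype.ext (mul_smul (z : G) (z' : G) q.1) }
    have hp : IsPGroup r ↥Z := IsPGroup.of_card (n := 1) (by rw [Nat.card_zpowers, hx, pow_one])
    have h1 := hp.card_modEq_card_fixedPoints ↥X
    have h2 : Nat.card (fixedPoints ↥Z ↥X) = 0 := by
      refine Nat.card_eq_zero.2 (Or.inl ⟨fun ⟨⟨q, hqX⟩, hq⟩ => ?_⟩)
      induction q using QuotientGroup.induction_on with
      | _ g =>
        have h3 : x • (g : G ⧸ H) = (g : G ⧸ H) :=
          congrArg Subtype.val (hq ⟨x, Subgroup.mem_zpowers x⟩)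
        rw [MulAction.Quotient.smul_coe, smul_eq_mul, QuotientGroup.eq] at h3
        refine hne J (fun e => hJ (Finset.coe_eq_univ.1 e)) ?_
        have h4 : g⁻¹ * x * g ∈ H := by
          have := inv_mem h3
          simpa [mul_assoc] using this
        have h5 : orderOf (g⁻¹ * x * g) = r := by
          rw [← hx]
          simpa using (SemiconjBy.conj_mk g⁻¹ x).orderOf_eq.symm
        have h6 := orderOf_dvd_natCard (⟨_, h4⟩ : ↥H)
        rw [← Subgroup.orderOf_coe] at h6
        rwa [h5] at h6
    rw [h2] at h1
    exact Nat.modEq_zero_iff_dvd.1 h1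
  choose k hk using hdvd
  have htop : P.parabolic (Subtype.val '' ((Finset.univ : Finset P.S) : Set P.S)) = ⊤ := by
    rw [Finset.coe_univ, Set.image_univ, Subtype.range_coe]
    exact parabolic_S P
  have hone : fixedPointCharacter (P.parabolic (Subtype.val '' ((Finset.univ : Finset P.S) : Set P.S))) b = 1 := by
    rw [htop, fixedPointCharacter]
    norm_cast
    rw [Nat.card_eq_one_iff_unique]
    refine ⟨⟨fun a c => Subtype.ext ?_⟩, ⟨⟨((1 : G) : G ⧸ (⊤ : Subgroup G)), ?_⟩⟩⟩
    · exact @Subsingleton.elim _ QuotientGroup.subsingleton_quotient_top _ _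
    · exact @Subsingleton.elim _ QuotientGroup.subsingleton_quotient_top _ _
  let c : Finset P.S → ℤ := fun J => if h : J = Finset.univ then 0 else (-1) ^ J.card * (k J h : ℤ)
  have hsum : ((-1 : ℤ) ^ (Finset.univ : Finset P.S).card + (r : ℤ) * ∑ J, c J : ℤ) = 0 := by
    have h1 : ∀ J : Finset P.S, (-1 : ℂ) ^ J.card * fixedPointCharacter (P.parabolic (Subtype.val '' (J : Set P.S))) b =
        (((if J = Finset.univ then (-1) ^ J.card else 0) + (r : ℤ) * c J : ℤ) : ℂ) := by
      intro J
      by_cases h : J = Finset.univ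
      · subst h
        rw [hone]
        simp [c]
      · rw [fixedPointCharacter, hk J h, if_neg h]
        simp only [c, dif_neg h]
        push_cast
        ring
    have h0' : (∑ J : Finset P.S, (-1 : ℂ) ^ J.card * fixedPointCharacter (P.parabolic (Subtype.val '' (J : Set P.S))) b) = 0 := by
      rw [← h0, stChar]
    rw [Finset.sum_congr rfl fun J _ => h1 J, ← Int.cast_sum, Int.cast_eq_zero, Finset.sum_add_distrib,
      ← Finset.mul_sum, Finset.sum_ite_eq', if_pos (Finset.mem_univ _)] at h0'
    exact h0'
  have hd : (r : ℤ) ∣ (-1 : ℤ) ^ (Finset.univ : Finset P.S).card :=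
    ⟨-∑ J, c J, by linarith⟩
  have hu : IsUnit ((-1 : ℤ) ^ (Finset.univ : Finset P.S).card) := (isUnit_one.neg).pow _
  have := Int.isUnit_iff_natAbs_eq.1 (isUnit_of_dvd_unit hd hu)
  simp at this
  exact hr.out.ne_one this

end Cfsg.Agent.Lib.BN
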