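import Mathlib.LinearAlgebra.Eigenspace.Zero
import Mathlib.LinearAlgebra.Eigenspace.Charpoly
import Mathlib.LinearAlgebra.Eigenspace.Triangularizable
import Mathlib.LinearAlgebra.Matrix.Charpoly.Eigs
import Mathlib.LinearAlgebra.Trace
import Mathlib.LinearAlgebra.Charpoly.ToMatrix
import Mathlib.Algebra.DirectSum.LinearMap
import Mathlib.Analysis.Complex.Polynomial.Basic

/-!
# Traces of powers
-/

set_option autoImplicit false

namespace Cfsg.Agent.Lib.BN

open Module Matrix

variable {Ω : Type*} [Fintype Ω] [DecidableEq Ω]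

theorem trace_pow_restrict {V : Type*} [AddCommGroup V] [Module ℂ V] [FiniteDimensional ℂ V]
    (f : End ℂ V) (μ : ℂ) : ∀ k : ℕ,
    LinearMap.trace ℂ _ ((f ^ k).restrict
      (f.mapsTo_maxGenEigenspace_of_comm ((Commute.refl f).pow_right k) μ)) =
      (finrank ℂ (f.maxGenEigenspace μ) : ℂ) * μ ^ k := by
  intro k
  induction k with
  | zero =>
    simp only [pow_zero, mul_one]
    exact (congrArg _ (LinearMap.ext fun x => rfl)).trans (LinearMap.trace_one ℂ _)
  | succ k ih =>
    have hc := LinearMap.restrict_commute ((Commute.refl f).pow_left k)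
      (f.mapsTo_maxGenEigenspace_of_comm ((Commute.refl f).pow_right k) μ)
      (f.mapsTo_maxGenEigenspace_of_comm (Commute.refl f) μ)
    have h := LinearMap.trace_comp_eq_mul_of_commute_of_isNilpotent μ hc
      (f.isNilpotent_restrict_maxGenEigenspace_sub_algebraMap μ)
    rw [ih] at h
    calc _ = _ := ?_
      _ = _ := h
      _ = _ := by rw [pow_succ]; ring
    rfl

/-- The trace of a power is the power sum of the roots of the characteristic polynomial. -/
theorem trace_pow_eq_sum_roots (A : Matrix Ω Ω ℂ) (k : ℕ) :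
    (A ^ k).trace = ∑ μ ∈ A.charpoly.roots.toFinset, (A.charpoly.roots.count μ : ℂ) * μ ^ k := by
  classical
  set f : End ℂ (Ω → ℂ) := Matrix.toLin' A with hf
  have htr : LinearMap.trace ℂ _ (f ^ k) = (A ^ k).trace := by
    rw [hf, ← Matrix.toLin'_pow, Matrix.trace_toLin'_eq]
  have hds := DirectSum.isInternal_submodule_of_iSupIndep_of_iSup_eq_top
    f.independent_maxGenEigenspace (End.iSup_maxGenEigenspace_eq_top f)
  have hfin : {μ | f.maxGenEigenspace μ ≠ ⊥}.Finite :=
    WellFoundedGT.finite_ne_bot_of_iSupIndep f.independent_maxGenEigenspace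
  have hrank : ∀ μ, finrank ℂ (f.maxGenEigenspace μ) = A.charpoly.roots.count μ := fun μ => by
    rw [LinearMap.finrank_maxGenEigenspace_eq, Polynomial.count_roots, hf, Matrix.charpoly_toLin']
  rw [← htr, LinearMap.trace_eq_sum_trace_restrict' hds hfin
    (fun μ => f.mapsTo_maxGenEigenspace_of_comm ((Commute.refl f).pow_right k) μ)]
  refine Finset.sum_congr ?_ fun μ _ => by rw [trace_pow_restrict, hrank]
  ext μ
  rw [Set.Finite.mem_toFinset, Set.mem_ofPred_eq, Multiset.mem_toFinset, ← Multiset.count_pos,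
    ← hrank, Nat.pos_iff_ne_zero, ne_eq, ne_eq, Submodule.finrank_eq_zero]

theorem exists_eigvec {A : Matrix Ω Ω ℂ} {μ : ℂ} (h : μ ∈ A.charpoly.roots) :
    ∃ v : Ω → ℂ, v ≠ 0 ∧ Matrix.toLin' A v = μ • v := by
  have h1 : End.HasEigenvalue (Matrix.toLin' A) μ := by
    rw [End.hasEigenvalue_iff_isRoot_charpoly, Matrix.charpoly_toLin']
    exact Polynomial.isRoot_of_mem_roots h
  obtain ⟨v, hv⟩ := h1.exists_hasEigenvector
  exact ⟨v, hv.2, hv.apply_eq_smul⟩

theorem count_roots_map {A : Matrix Ω Ω ℂ} (σ : ℂ ≃+* ℂ) (h : A.map σ = A) (μ : ℂ) :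
    A.charpoly.roots.count (σ μ) = A.charpoly.roots.count μ := by
  have h1 : A.charpoly.map σ.toRingHom = A.charpoly := by
    conv_rhs => rw [← h]
    exact (Matrix.charpoly_map A σ.toRingHom).symm
  conv_lhs => rw [← h1]
  rw [Polynomial.count_roots, Polynomial.count_roots]
  exact (Polynomial.eq_rootMultiplicity_map σ.injective μ).symm

end Cfsg.Agent.Lib.BN
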